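import Cfsg.Agent.McLRank.Checks
import Cfsg.Agent.McLRank.HemiData

/-!
Kernel checks for the hemisystems and for the bound on the automorphism group.
-/

set_option autoImplicit false

namespace Cfsg.Agent.McLRank

/-- The product of the class sizes along an order. -/
def chainProd : List ℕ → List ℕ → ℕ
  | _, [] => 1
  | prev, v :: l => (sigClass prev v).length * chainProd (v :: prev) l

set_option maxRecDepth 20000 in
theorem chain_ok : chainProd [] chainOrder ≤ 8 * 3265920 ∧ chainOrder.Nodup ∧
    chainOrder.length = 112 ∧ chainOrder.all (fun v => Nat.blt v 112) = true := by decide +kernel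

/-- The number of points of a mask among some points. -/
def cnt (m : ℕ) : List ℕ → ℕ
  | [] => 0
  | x :: l => (bif bit m x then 1 else 0) + cnt m l

/-- The leaf check. -/
def leafOK (i : ℕ) : Bool := leafData.any fun s => Nat.beq s.1 i

/-- The verified search: `i` points inside, `o` points outside. -/
def search : List (ℕ × List (List ℕ)) → ℕ → ℕ → Bool
  | [], i, _ => leafOK i
  | (v, cs) :: l, i, o =>
    (bif cs.all (fun c => Nat.ble (cnt (i ||| (1 <<< v)) c) 2) then search l (i ||| (1 <<< v)) o
      else true) &&
    (bif cs.all (fun c => Nat.ble (cnt (o ||| (1 <<< v)) c) 2) then search l i (o ||| (1 <<< v))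
      else true)

set_option maxRecDepth 20000 in
theorem search_ok : search (searchData.drop 2) (1 ||| (1 <<< nb)) 0 = true := by decide +kernel

/-- A list of points is a clique. -/
def cliqueB (c : List ℕ) : Bool :=
  c.length == 4 && (c.all fun x => Nat.blt x 112) &&
    c.all fun x => c.all fun y => x == y || adjB x y

set_option maxRecDepth 20000 in
theorem searchData_ok :
    (searchData.map Prod.fst).take 2 = [0, nb] ∧
    searchData.all (fun p => Nat.blt p.1 112 && p.2.all fun c => cliqueB c && decide c.Nodup)
      = true ∧
    (List.range 112).all (fun x => (searchData.map Prod.fst).contains x) = true := by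
  decide +kernel

/-- A member of the family, as a mask. -/
def famM (j : ℕ) : ℕ := famData.getD j 0

set_option maxRecDepth 20000 in
theorem fam_trans_ok : (List.range 162).all (fun j => (List.range 2).all fun k =>
    Nat.blt ((famTrans.getD j []).getD k 162) 162 && (List.range 112).all fun x =>
      bit (famM ((famTrans.getD j []).getD k 162)) (app (genP (k == 1)) x) == bit (famM j) x)
    = true := by decide +kernel

set_option maxRecDepth 20000 in
theorem fam_rep_ok : (List.range 162).all (fun j => (List.range 112).all fun x =>
    bit (famM j) (wimg (famRep.getD j 0) x) == bit (famM 0) x) = true ∧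
    famData.Nodup ∧ famData.length = 162 ∧ famData.all (fun m => Nat.blt m (2 ^ 112)) = true := by
  decide +kernel

/-- The common points of the first and another member. -/
def inter0 (j : ℕ) : ℕ := cnt (famM j) ((List.range 112).filter fun x => bit (famM 0) x)

set_option maxRecDepth 20000 in
theorem inter_ok : (List.range 162).all (fun j => Nat.beq j 0 || Nat.beq (inter0 j) 20 ||
    Nat.beq (inter0 j) 32) = true ∧
    ((List.range 162).countP fun j => !Nat.beq j 0 && Nat.beq (inter0 j) 20) = 56 ∧
    inter0 0 = 56 := by decide +kernel

set_option maxRecDepth 20000 in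
theorem out_ok : outData.length = 4 ∧ outData.all permOK = true ∧
    (List.range 4).all (fun p => (List.range 2).all fun k =>
      let d := (outConj.getD p []).getD k (0, 0)
      Nat.blt d.1 4480 && Nat.blt d.2 729 && detPts.all fun x =>
        app (outData.getD p (0, 0)).1 (app (genP (k == 1)) x) ==
          wimg d.1 (simg d.2 (app (outData.getD p (0, 0)).1 x))) = true := by decide +kernel

set_option maxRecDepth 20000 in
theorem leaf_ok : leafData.all (fun s => Nat.blt s.2.1 4 && Nat.blt s.2.2 162 &&
    (List.range 112).all fun x =>
      bit s.1 (app (outData.getD s.2.1 (0, 0)).1 x) == bit (famM s.2.2) x) = true := by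
  decide +kernel

set_option maxRecDepth 20000 in
theorem lambda_ok : (List.range 112).all (fun x => (List.range 112).all fun y =>
    !adjB x y || Nat.beq ((List.range 112).countP fun z => adjB x z && adjB y z) 2) = true ∧
    ((List.range 112).countP fun x => bit (famM 0) x) = 56 := by decide +kernel

end Cfsg.Agent.McLRank
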