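import Cfsg.Agent.McLRank.SubIndex
import Cfsg.Agent.McLRank.HemiChecks

/-!
The automorphism group of the graph on 112 points is at most eight times the group, so the group
is the only subgroup of its isomorphism type in it.
-/

set_option autoImplicit false

namespace Cfsg.Agent.McLRank

/-- The automorphisms fixing the points of a list. -/
def fixSub (prev : List ℕ) : Subgroup (Equiv.Perm (Fin 112)) where
  carrier := {g | g ∈ Aut112 ∧ ∀ k ∈ prev, g (pt k) = pt k}
  one_mem' := ⟨one_mem _, fun _ _ => rfl⟩
  mul_mem' {a b} ha hb :=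
    ⟨mul_mem ha.1 hb.1, fun k hk => by rw [Equiv.Perm.mul_apply, hb.2 k hk, ha.2 k hk]⟩
  inv_mem' {a} ha :=
    ⟨inv_mem ha.1, fun k hk => by rw [Equiv.Perm.inv_eq_iff_eq, ha.2 k hk]⟩

theorem card_fixSub_le : ∀ (l prev : List ℕ), (∀ k ∈ prev, k < 112) → (∀ k ∈ l, k < 112) →
    (l ++ prev).Nodup → (∀ x : Fin 112, (x : ℕ) ∈ l ++ prev) →
      Nat.card ↥(fixSub prev) ≤ chainProd prev l
  | [], prev, _, _, _, hall => by
    have : fixSub prev = ⊥ := eq_bot_iff.2 fun g hg => Subgroup.mem_bot.2 (Equiv.ext fun x => by
      have := hg.2 x (by simpa using hall x)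
      rwa [pt_self] at this)
    rw [this, chainProd, Subgroup.card_bot]
  | v :: l, prev, hp, hl, hnd, hall => by
    have hv : v < 112 := hl v (by simp)
    have hnot : v ∉ prev := by
      simp only [List.cons_append, List.nodup_cons, List.mem_append, not_or] at hnd
      exact hnd.1.2
    have ih := card_fixSub_le l (v :: prev)
      (fun k hk => by rcases List.mem_cons.1 hk with rfl | hk; exacts [hv, hp k hk])
      (fun k hk => hl k (List.mem_cons_of_mem _ hk))
      ((List.perm_middle).nodup_iff.2 hnd)
      (fun x => by simpa [or_comm, or_left_comm] using hall x)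
    have hst := Subgroup.card_mul_index (MulAction.stabilizer ↥(fixSub prev) (pt v))
    rw [MulAction.index_stabilizer] at hst
    have e : Nat.card ↥(MulAction.stabilizer ↥(fixSub prev) (pt v)) =
        Nat.card ↥(fixSub (v :: prev)) := Nat.card_congr
      { toFun := fun g => ⟨g.1.1, g.1.2.1, fun k hk => by
          rcases List.mem_cons.1 hk with rfl | hk
          exacts [g.2, g.1.2.2 k hk]⟩
        invFun := fun g => ⟨⟨g.1, g.2.1, fun k hk => g.2.2 k (List.mem_cons_of_mem _ hk)⟩,
          g.2.2 v (by simp)⟩
        left_inv := fun _ => rfl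
        right_inv := fun _ => rfl }
    have horb : (MulAction.orbit ↥(fixSub prev) (pt v)).ncard ≤ (sigClass prev v).length := by
      have hsub : MulAction.orbit ↥(fixSub prev) (pt v) ⊆
          (((sigClass prev v).map pt).toFinset : Set (Fin 112)) := by
        rintro _ ⟨g, rfl⟩
        have := mem_sigClass hp (v := pt v) (by rw [pt_val hv]; exact hnot) g.2.1 g.2.2
        rw [pt_val hv] at this
        simp only [List.coe_toFinset, List.mem_map, Set.mem_setOf_eq]
        exact ⟨_, this, pt_self _⟩
      calc (MulAction.orbit ↥(fixSub prev) (pt v)).ncard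
          ≤ (((sigClass prev v).map pt).toFinset : Set (Fin 112)).ncard :=
            Set.ncard_le_ncard hsub
        _ ≤ (sigClass prev v).length := by
            rw [Set.ncard_coe_finset]
            exact (List.toFinset_card_le _).trans (by rw [List.length_map])
    rw [← hst, e, chainProd, mul_comm (sigClass prev v).length]
    exact Nat.mul_le_mul ih horb

theorem card_Aut112_le : Nat.card ↥Aut112 ≤ 8 * 3265920 := by
  obtain ⟨h1, hnd, hlen, hlt⟩ := chain_ok
  have hlt' : ∀ k ∈ chainOrder, k < 112 := fun k hk => by simpa using List.all_eq_true.1 hlt k hk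
  have hall : ∀ x : Fin 112, (x : ℕ) ∈ chainOrder := by
    intro x
    have hsub : chainOrder.toFinset ⊆ Finset.range 112 := fun k hk =>
      Finset.mem_range.2 (hlt' k (List.mem_toFinset.1 hk))
    have he := Finset.eq_of_subset_of_card_le hsub (by
      rw [List.toFinset_card_of_nodup hnd, hlen, Finset.card_range])
    exact List.mem_toFinset.1 (he.symm ▸ Finset.mem_range.2 x.2)
  have he : fixSub [] = Aut112 := by
    ext g
    exact ⟨fun h => h.1, fun h => ⟨h, fun k hk => by simp at hk⟩⟩
  rw [← he]
  exact (card_fixSub_le chainOrder [] (by simp) hlt' (by simpa using hnd)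
    (fun x => by simpa using hall x)).trans h1

/-- A simple group has no proper subgroup of index whose factorial its order does not divide. -/
theorem eq_top_of_small_index {K : Type*} [Group K] [Finite K] [IsSimpleGroup K]
    (J : Subgroup K) (h : ¬ Nat.card K ∣ J.index.factorial) : J = ⊤ := by
  rcases IsSimpleGroup.eq_bot_or_eq_top_of_normal J.normalCore inferInstance with hN | hN
  · refine absurd ?_ h
    have hinj : Function.Injective (MulAction.toPermHom K (K ⧸ J)) :=
      (MonoidHom.ker_eq_bot_iff _).1 (by rw [← Subgroup.normalCore_eq_ker, hN])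
    have := Subgroup.card_dvd_of_injective _ hinj
    rwa [Nat.card_perm, ← Subgroup.index_eq_card] at this
  · exact eq_top_iff.2 (hN.symm.le.trans J.normalCore_le)

/-- The group is the only subgroup of its kind in the automorphism group. -/
theorem eq_P0 (hcard : Nat.card ↥P0 = 3265920) [IsSimpleGroup ↥P0]
    {K : Subgroup (Equiv.Perm (Fin 112))} (hK : K ≤ Aut112) (e : ↥P0 ≃* ↥K) : K = P0 := by
  haveI : IsSimpleGroup ↥K := e.isSimpleGroup_congr.1 inferInstance
  have hKc : Nat.card ↥K = 3265920 := by rw [← Nat.card_congr e.toEquiv, hcard]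
  have hidx : P0.relIndex K ≤ 8 := by
    have h1 : P0.relIndex K ≤ P0.relIndex Aut112 :=
      Subgroup.relIndex_le_of_le_right hK Subgroup.index_ne_zero_of_finite
    have h2 : Nat.card ↥P0 * P0.relIndex Aut112 = Nat.card ↥Aut112 := by
      rw [← Nat.card_congr (Subgroup.subgroupOfEquivOfLe P0_le_aut).toEquiv]
      exact Subgroup.card_mul_index _
    have := card_Aut112_le
    rw [hcard] at h2
    omega
  have htop : P0.subgroupOf K = ⊤ := by
    refine eq_top_of_small_index _ fun hd => ?_
    have h8 := hd.trans (Nat.factorial_dvd_factorial hidx)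
    rw [hKc] at h8
    exact absurd (Nat.le_of_dvd (Nat.factorial_pos 8) h8) (by decide)
  exact Subgroup.eq_of_le_of_card_ge (Subgroup.subgroupOf_eq_top.1 htop) (by rw [hKc, hcard])

end Cfsg.Agent.McLRank
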