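import Mathlib
import Cfsg.Agent.McLRank.Data

/-!
The graph on 112 points, packed permutations and the determination of an automorphism by the
images of few points.
-/

set_option autoImplicit false

namespace Cfsg.Agent.McLRank

/-- A point of the set of 112, of a natural number. -/
def pt (i : ℕ) : Fin 112 := ⟨i % 112, Nat.mod_lt _ (by norm_num)⟩

theorem pt_val {i : ℕ} (h : i < 112) : (pt i : ℕ) = i := Nat.mod_eq_of_lt h

theorem pt_self (x : Fin 112) : pt (x : ℕ) = x := Fin.ext (pt_val x.2)

/-- The image of a point under a packed map. -/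
def app (P i : ℕ) : ℕ := (P >>> (7 * i)) &&& 127

/-- The bit of a mask. -/
def bit (m i : ℕ) : Bool := Nat.beq ((m >>> i) &&& 1) 1

theorem bit_eq_testBit (m i : ℕ) : bit m i = m.testBit i := by
  have h := Nat.and_one_is_mod (m >>> i)
  rw [bit, Nat.testBit, h, Nat.and_comm, h]
  rcases Nat.mod_two_eq_zero_or_one (m >>> i) with e | e <;> rw [e] <;> rfl

/-- Adjacency, on numbers. -/
def adjB (u v : ℕ) : Bool := bit (adjData.getD u 0) v

/-- Adjacency of the 112 points. -/
def Adj (x y : Fin 112) : Prop := adjB x y = true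

instance : DecidableRel Adj := fun x y => inferInstanceAs (Decidable (adjB x y = true))

set_option maxRecDepth 20000 in
theorem adj_ok : ((List.range 112).all fun x => (!adjB x x) &&
    (List.range 112).all fun y => adjB x y == adjB y x) = true ∧
    ((List.range 112).countP fun y => adjB 0 y) = 30 := by decide +kernel

theorem Adj.symm {x y : Fin 112} (h : Adj x y) : Adj y x := by
  have h1 := List.all_eq_true.1 adj_ok.1 x.1 (List.mem_range.2 x.2)
  rw [Bool.and_eq_true] at h1
  have h2 := List.all_eq_true.1 h1.2 y.1 (List.mem_range.2 y.2)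
  rw [beq_iff_eq] at h2
  exact h2.symm.trans h

theorem Adj.ne {x y : Fin 112} (h : Adj x y) : x ≠ y := by
  rintro rfl
  have h1 := List.all_eq_true.1 adj_ok.1 x.1 (List.mem_range.2 x.2)
  rw [Bool.and_eq_true, Bool.not_eq_true', show adjB x x = true from h] at h1
  exact Bool.noConfusion h1.1

/-- The automorphisms of the graph. -/
def Aut112 : Subgroup (Equiv.Perm (Fin 112)) where
  carrier := {g | ∀ x y, Adj (g x) (g y) ↔ Adj x y}
  one_mem' _ _ := Iff.rfl
  mul_mem' ha hb x y := (ha _ _).trans (hb x y)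
  inv_mem' {g} hg x y := by
    rw [← hg]
    simp [Equiv.Perm.inv_def]

theorem mem_Aut112 {g : Equiv.Perm (Fin 112)} :
    g ∈ Aut112 ↔ ∀ x y, Adj (g x) (g y) ↔ Adj x y := Iff.rfl

/-- The points not in a list having the adjacencies of `v` to the list. -/
def sigClass (prev : List ℕ) (v : ℕ) : List ℕ :=
  (List.range 112).filter fun u => (!prev.contains u) && prev.all fun k => adjB u k == adjB v k

theorem mem_sigClass {prev : List ℕ} (hp : ∀ k ∈ prev, k < 112) {v : Fin 112}
    (hv : (v : ℕ) ∉ prev) {g : Equiv.Perm (Fin 112)} (hg : g ∈ Aut112)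
    (hfix : ∀ k ∈ prev, g (pt k) = pt k) : ((g v : Fin 112) : ℕ) ∈ sigClass prev v := by
  simp only [sigClass, List.mem_filter, List.mem_range, Bool.and_eq_true, Bool.not_eq_true',
    List.contains_eq_mem, decide_eq_false_iff_not, List.all_eq_true, beq_iff_eq]
  refine ⟨(g v).2, fun h => ?_, fun k hk => ?_⟩
  · have := hfix _ h
    rw [pt_self] at this
    exact hv (g.injective this ▸ h)
  · have h := hg v (pt k)
    rw [hfix k hk] at h
    simp only [Adj, pt_val (hp k hk)] at h
    exact Bool.eq_iff_iff.2 h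

/-- Every point after the first `n` is alone in its class. -/
def forcedB : List ℕ → List ℕ → Bool
  | _, [] => true
  | prev, v :: l => Nat.blt v 112 && !prev.contains v && (sigClass prev v).length == 1 &&
      forcedB (v :: prev) l

theorem forced_fix {g : Equiv.Perm (Fin 112)} (hg : g ∈ Aut112) :
    ∀ (l prev : List ℕ), (∀ k ∈ prev, k < 112) → (∀ k ∈ prev, g (pt k) = pt k) →
      forcedB prev l = true → ∀ k ∈ l, g (pt k) = pt k
  | [], _, _, _, _ => by simp
  | v :: l, prev, hp, hfix, h => by
    simp only [forcedB, Bool.and_eq_true, Nat.blt_eq, Bool.not_eq_true', beq_iff_eq,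
      List.contains_eq_mem, decide_eq_false_iff_not] at h
    obtain ⟨⟨⟨hv, hnot⟩, h1⟩, hrest⟩ := h
    have hmem := mem_sigClass hp (v := pt v) (by rw [pt_val hv]; exact hnot) hg hfix
    have hself := mem_sigClass hp (v := pt v) (by rw [pt_val hv]; exact hnot) (one_mem Aut112)
      (fun k _ => rfl)
    obtain ⟨a, ha⟩ := List.length_eq_one_iff.1 h1
    rw [pt_val hv, ha, List.mem_singleton] at hmem
    rw [Equiv.Perm.one_apply, pt_val hv, ha, List.mem_singleton] at hself
    have hgv : g (pt v) = pt v := Fin.ext (by rw [hmem, pt_val hv]; exact hself.symm)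
    have ih := forced_fix hg l (v :: prev)
      (fun k hk => by rcases List.mem_cons.1 hk with rfl | hk; exacts [hv, hp k hk])
      (fun k hk => by rcases List.mem_cons.1 hk with rfl | hk; exacts [hgv, hfix k hk]) hrest
    intro k hk
    rcases List.mem_cons.1 hk with rfl | hk
    exacts [hgv, ih k hk]

set_option maxRecDepth 20000 in
theorem det_ok : detPts.all (fun k => Nat.blt k 112) = true ∧
    forcedB detPts.reverse (detOrder.drop 5) = true ∧ detOrder.take 5 = detPts ∧
    (List.range 112).all (fun x => detOrder.contains x) = true := by decide +kernel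

/-- An automorphism is determined by five images. -/
theorem det_eq {g h : Equiv.Perm (Fin 112)} (hg : g ∈ Aut112) (hh : h ∈ Aut112)
    (he : ∀ k ∈ detPts, g (pt k) = h (pt k)) : g = h := by
  obtain ⟨hlt, hf, htake, hall⟩ := det_ok
  have hk : h⁻¹ * g ∈ Aut112 := mul_mem (inv_mem hh) hg
  have hfix : ∀ k ∈ detPts.reverse, (h⁻¹ * g) (pt k) = pt k := fun k hk => by
    rw [Equiv.Perm.mul_apply, he k (List.mem_reverse.1 hk), Equiv.Perm.inv_def,
      Equiv.symm_apply_apply]
  have hp : ∀ k ∈ detPts.reverse, k < 112 := fun k hk => by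
    simpa using List.all_eq_true.1 hlt k (List.mem_reverse.1 hk)
  have hall' : ∀ x : Fin 112, (h⁻¹ * g) x = x := fun x => by
    have hx : (x : ℕ) ∈ detOrder := by
      simpa using List.all_eq_true.1 hall x.1 (List.mem_range.2 x.2)
    rw [← pt_self x]
    rcases List.mem_append.1 ((List.take_append_drop 5 detOrder).symm ▸ hx :
      (x : ℕ) ∈ detOrder.take 5 ++ detOrder.drop 5) with hx | hx
    · rw [htake] at hx
      exact hfix _ (List.mem_reverse.2 hx)
    · exact forced_fix hk _ _ hp hfix hf _ hx
  have h1 : h⁻¹ * g = 1 := Equiv.ext hall'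
  exact (inv_mul_eq_one.1 h1).symm

/-! ### Packed permutations -/

/-- A permutation is represented by a packed map. -/
def Rep (g : Equiv.Perm (Fin 112)) (P : ℕ) : Prop := ∀ x : Fin 112, ((g x : Fin 112) : ℕ) = app P x

theorem Rep.eq_pt {g : Equiv.Perm (Fin 112)} {P : ℕ} (h : Rep g P) (x : Fin 112) :
    g x = pt (app P x) := Fin.ext (by rw [h x, pt_val (h x ▸ (g x).2)])

/-- `P` and `Q` are inverse and `P` preserves adjacency. -/
def permOK (pq : ℕ × ℕ) : Bool :=
  ((List.range 112).all fun i => Nat.blt (app pq.1 i) 112 && app pq.2 (app pq.1 i) == i &&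
    (Nat.blt (app pq.2 i) 112 && app pq.1 (app pq.2 i) == i)) &&
  ((List.range 112).all fun i => (List.range 112).all fun j =>
    adjB (app pq.1 i) (app pq.1 j) == adjB i j)

theorem exists_rep {pq : ℕ × ℕ} (h : permOK pq = true) :
    ∃ g : Equiv.Perm (Fin 112), g ∈ Aut112 ∧ Rep g pq.1 := by
  simp only [permOK, Bool.and_eq_true, List.all_eq_true, List.mem_range, Nat.blt_eq,
    beq_iff_eq] at h
  obtain ⟨h1, h2⟩ := h
  refine ⟨⟨fun x => ⟨app pq.1 x, (h1 x x.2).1.1⟩, fun x => ⟨app pq.2 x, (h1 x x.2).2.1⟩,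
    fun x => Fin.ext (h1 x x.2).1.2, fun x => Fin.ext (h1 x x.2).2.2⟩, ?_, fun x => rfl⟩
  intro x y
  exact Bool.eq_iff_iff.1 (h2 x x.2 y y.2)

/-- The value at an index of a chunked table. -/
def tget {α : Type} (t : List (List α)) (n i : ℕ) (d : α) : α := (t.getD (i / n) []).getD (i % n) d

end Cfsg.Agent.McLRank
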