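import Cfsg.Agent.McLRank.Basic

/-!
Kernel checks of the Sylow 3-subgroup and of its cosets.
-/

set_option autoImplicit false

namespace Cfsg.Agent.McLRank

/-- The map of a generator, by a bit. -/
def genP (b : Bool) : ℕ := bif b then (genData.getD 1 (0, 0)).1 else (genData.getD 0 (0, 0)).1

/-- The image of a point under a coded word. -/
def wapp : ℕ → ℕ → ℕ → ℕ
  | 0, _, x => x
  | n + 1, c, x => bif Nat.ble c 1 then x else app (genP (bit c 0)) (wapp n (c >>> 1) x)

/-- The code of a coset representative. -/
def wcode (i : ℕ) : ℕ := tget wordT 64 i 1

/-- The image of a point under a coset representative. -/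
def wimg (i x : ℕ) : ℕ := wapp 16 (wcode i) x

/-- The packed element. -/
def sylP (e : ℕ) : ℕ := tget sylT 27 e 0

/-- The image of a point under an element of the Sylow subgroup. -/
def simg (e x : ℕ) : ℕ := app (sylP e) x

/-- The check of the parent of an element. -/
def parOK (e : ℕ) : Bool :=
  let p := tget sylPar 27 e (0, 0)
  bif Nat.beq e 0 then (List.range 112).all fun x => app (sylP 0) x == x
  else Nat.blt p.1 3 && Nat.blt p.2 e &&
    (List.range 112).all fun x =>
      app (sylP e) x == app (sylGen.getD p.1 (0, 0)).1 (app (sylP p.2) x)

set_option maxRecDepth 20000 in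
theorem par_ok : (List.range 729).all parOK = true := by decide +kernel

/-- Closure under the generators, on the determining points. -/
def closedOK (e : ℕ) : Bool :=
  let r := tget sylMul 27 e []
  (List.range 3).all fun j => Nat.blt (r.getD j 729) 729 &&
    detPts.all fun k => simg (r.getD j 729) k == app (sylGen.getD j (0, 0)).1 (simg e k)

set_option maxRecDepth 20000 in
theorem closed_ok : (List.range 729).all closedOK = true := by decide +kernel

/-- The key of an element of the Sylow subgroup. -/
def skey (e : ℕ) : ℕ := detPts.foldl (fun a k => a * 128 + simg e k) 0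

set_option maxRecDepth 20000 in
theorem skey_nodup : ((List.range 729).map skey).Nodup := by decide +kernel

/-- The check of the source of a generator. -/
def srcOK (j : ℕ) : Bool :=
  let s := sylSrc.getD j (0, 0, 0)
  Nat.blt s.2.1 2 && (List.range 112).all fun x =>
    wimg s.2.2 (app (sylGen.getD j (0, 0)).1 x) == app (genData.getD s.2.1 (0, 0)).1 (wimg s.1 x)

set_option maxRecDepth 20000 in
theorem src_ok : (List.range 3).all srcOK = true := by decide +kernel

/-- The check of an edge. -/
def edgeOK (P i j e : ℕ) : Bool :=
  Nat.blt j 4480 && Nat.blt e 729 && detPts.all fun k => app P (wimg i k) == wimg j (simg e k)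

/-- The check of the edges at a coset. -/
def transOK (i : ℕ) : Bool :=
  let r := tget transT 64 i ((0, 0), (0, 0))
  edgeOK (genData.getD 0 (0, 0)).1 i r.1.1 r.1.2 && edgeOK (genData.getD 1 (0, 0)).1 i r.2.1 r.2.2

set_option maxRecDepth 20000 in
theorem trans_ok : (List.range 4480).all transOK = true := by decide +kernel

set_option maxRecDepth 20000 in
theorem wel_zero_ok : detPts.all (fun k => wimg 0 k == k) = true := by decide +kernel

end Cfsg.Agent.McLRank
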