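import Cfsg.Agent.McLRank.Checks

/-!
The group on 112 points, a Sylow 3-subgroup and a cover by its cosets.
-/

set_option autoImplicit false

namespace Cfsg.Agent.McLRank

set_option maxRecDepth 20000 in
theorem data_ok : genData.length = 2 ∧ genData.all permOK = true ∧ sylGen.length = 3 ∧
    sylGen.all permOK = true := by decide +kernel

theorem genData_ok (k : Fin 2) : permOK (genData.getD k (0, 0)) = true := by
  have hlt : (k : ℕ) < genData.length := by rw [data_ok.1]; exact k.2
  exact List.all_eq_true.1 data_ok.2.1 _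
    (by rw [List.getD_eq_getElem _ _ hlt]; exact List.getElem_mem _)

theorem sylGen_ok (k : Fin 3) : permOK (sylGen.getD k (0, 0)) = true := by
  have hlt : (k : ℕ) < sylGen.length := by rw [data_ok.2.2.1]; exact k.2
  exact List.all_eq_true.1 data_ok.2.2.2 _
    (by rw [List.getD_eq_getElem _ _ hlt]; exact List.getElem_mem _)

/-- The two generators. -/
noncomputable def gen (k : Fin 2) : Equiv.Perm (Fin 112) := (exists_rep (genData_ok k)).choose

theorem gen_aut (k : Fin 2) : gen k ∈ Aut112 := (exists_rep (genData_ok k)).choose_spec.1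

theorem gen_rep (k : Fin 2) : Rep (gen k) (genData.getD k (0, 0)).1 :=
  (exists_rep (genData_ok k)).choose_spec.2

/-- The group on 112 points. -/
noncomputable def P0 : Subgroup (Equiv.Perm (Fin 112)) := Subgroup.closure (Set.range gen)

theorem gen_mem (k : Fin 2) : gen k ∈ P0 := Subgroup.subset_closure ⟨k, rfl⟩

theorem P0_le_aut : P0 ≤ Aut112 :=
  (Subgroup.closure_le _).2 (by rintro _ ⟨k, rfl⟩; exact gen_aut k)

/-- The element of a coded word. -/
noncomputable def welN : ℕ → ℕ → Equiv.Perm (Fin 112)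
  | 0, _ => 1
  | n + 1, c => bif Nat.ble c 1 then 1 else gen (bif bit c 0 then 1 else 0) * welN n (c >>> 1)

theorem gen_genP (b : Bool) : Rep (gen (bif b then 1 else 0)) (genP b) := by
  cases b <;> exact gen_rep _

theorem welN_spec : ∀ (n c : ℕ), welN n c ∈ P0 ∧
    ∀ x : Fin 112, ((welN n c x : Fin 112) : ℕ) = wapp n c x
  | 0, _ => ⟨one_mem _, fun _ => rfl⟩
  | n + 1, c => by
    obtain ⟨h1, h2⟩ := welN_spec n (c >>> 1)
    rcases hb : Nat.ble c 1 with _ | _
    · simp only [welN, wapp, hb, cond_false]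
      refine ⟨mul_mem (gen_mem _) h1, fun x => ?_⟩
      rw [Equiv.Perm.mul_apply, gen_genP _ _, h2]
    · simp only [welN, wapp, hb, cond_true]
      exact ⟨one_mem _, fun _ => rfl⟩

/-- A coset representative. -/
noncomputable def wel (i : ℕ) : Equiv.Perm (Fin 112) := welN 16 (wcode i)

theorem wel_mem (i : ℕ) : wel i ∈ P0 := (welN_spec _ _).1

theorem wel_aut (i : ℕ) : wel i ∈ Aut112 := P0_le_aut (wel_mem i)

theorem wel_val (i : ℕ) (x : Fin 112) : ((wel i x : Fin 112) : ℕ) = wimg i x := (welN_spec _ _).2 x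

/-! ### The Sylow subgroup -/

/-- A generator of the Sylow subgroup. -/
noncomputable def sgen (k : Fin 3) : Equiv.Perm (Fin 112) := (exists_rep (sylGen_ok k)).choose

theorem sgen_aut (k : Fin 3) : sgen k ∈ Aut112 := (exists_rep (sylGen_ok k)).choose_spec.1

theorem sgen_rep (k : Fin 3) : Rep (sgen k) (sylGen.getD k (0, 0)).1 :=
  (exists_rep (sylGen_ok k)).choose_spec.2

/-- The Sylow subgroup. -/
noncomputable def Usub : Subgroup (Equiv.Perm (Fin 112)) := Subgroup.closure (Set.range sgen)

theorem exists_syl : ∀ e, e < 729 → ∃ u ∈ Usub, Rep u (sylP e) := by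
  intro e
  induction e using Nat.strong_induction_on with
  | _ e ih =>
    intro he
    have h := List.all_eq_true.1 par_ok e (List.mem_range.2 he)
    rcases Nat.eq_zero_or_pos e with rfl | hpos
    · simp only [parOK, show Nat.beq 0 0 = true from rfl, cond_true, List.all_eq_true,
        List.mem_range, beq_iff_eq] at h
      exact ⟨1, one_mem _, fun x => (h x x.2).symm⟩
    · have hb : Nat.beq e 0 = false := by
        cases e with
        | zero => omega
        | succ e => rfl
      simp only [parOK, hb, cond_false, Bool.and_eq_true, Nat.blt_eq, List.all_eq_true,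
        List.mem_range, beq_iff_eq] at h
      obtain ⟨⟨hj, hp⟩, hx⟩ := h
      obtain ⟨u, hu, hur⟩ := ih _ hp (by omega)
      refine ⟨sgen ⟨_, hj⟩ * u, mul_mem (Subgroup.subset_closure ⟨_, rfl⟩) hu, fun x => ?_⟩
      rw [Equiv.Perm.mul_apply, sgen_rep _ _, hur x]
      exact (hx x x.2).symm

theorem Usub_le_aut : Usub ≤ Aut112 :=
  (Subgroup.closure_le _).2 (by rintro _ ⟨k, rfl⟩; exact sgen_aut k)

/-- The element with an index. -/
noncomputable def syl (e : ℕ) : Equiv.Perm (Fin 112) :=
  if h : e < 729 then (exists_syl e h).choose else 1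

theorem syl_mem (e : ℕ) : syl e ∈ Usub := by
  rw [syl]; split
  exacts [(exists_syl e ‹_›).choose_spec.1, one_mem _]

theorem syl_aut (e : ℕ) : syl e ∈ Aut112 := Usub_le_aut (syl_mem e)

theorem syl_val {e : ℕ} (he : e < 729) (x : Fin 112) : ((syl e x : Fin 112) : ℕ) = simg e x := by
  rw [syl, dif_pos he]
  exact (exists_syl e he).choose_spec.2 x

theorem detPts_lt {k : ℕ} (hk : k ∈ detPts) : k < 112 := by
  simpa using List.all_eq_true.1 det_ok.1 k hk

theorem exists_index {u : Equiv.Perm (Fin 112)} (hu : u ∈ Usub) : ∃ e < 729, u = syl e := by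
  have hu' : u ∈ Submonoid.closure (Set.range sgen) := by
    rw [← Subgroup.closure_toSubmonoid_of_finite]; exact hu
  induction hu' using Submonoid.closure_induction_left with
  | one =>
    refine ⟨0, by norm_num, det_eq (one_mem _) (syl_aut 0) fun k hk => Fin.ext ?_⟩
    have h := List.all_eq_true.1 par_ok 0 (List.mem_range.2 (by norm_num))
    simp only [parOK, show Nat.beq 0 0 = true from rfl, cond_true, List.all_eq_true,
      List.mem_range, beq_iff_eq] at h
    rw [syl_val (by norm_num)]
    exact (h _ (pt k).2).symm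
  | mul_left x hx y hy ih =>
    obtain ⟨j, rfl⟩ := hx
    have hyU : y ∈ Usub := by
      have : y ∈ (Subgroup.closure (Set.range sgen)).toSubmonoid :=
        Subgroup.le_closure_toSubmonoid _ hy
      exact this
    obtain ⟨e, he, rfl⟩ := ih hyU
    have h := List.all_eq_true.1 closed_ok e (List.mem_range.2 he)
    simp only [closedOK, List.all_eq_true, List.mem_range, Bool.and_eq_true, Nat.blt_eq,
      beq_iff_eq] at h
    obtain ⟨h1, h2⟩ := h j j.2
    refine ⟨_, h1, det_eq (mul_mem (sgen_aut _) (syl_aut _)) (syl_aut _) fun k hk => Fin.ext ?_⟩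
    have hk2 := detPts_lt hk
    rw [Equiv.Perm.mul_apply, sgen_rep _ _, syl_val he, syl_val h1, pt_val hk2]
    exact (h2 k hk).symm

theorem card_Usub : Nat.card ↥Usub = 729 := by
  have hfun : Function.Bijective fun e : Fin 729 => (⟨syl e, syl_mem e⟩ : ↥Usub) := by
    refine ⟨fun a b hab => ?_, fun u => ?_⟩
    · have hab : syl a = syl b := congrArg Subtype.val hab
      have hd : ∀ k ∈ detPts, simg a k = simg b k := fun k hk => by
        have := congrArg (fun g : Equiv.Perm (Fin 112) => ((g (pt k) : Fin 112) : ℕ)) hab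
        simpa [syl_val a.2, syl_val b.2, pt_val (detPts_lt hk)] using this
      have key : skey a = skey b := by
        unfold skey
        exact List.foldl_ext _ _ 0 fun acc k hk => by rw [hd k hk]
      exact Fin.ext (List.inj_on_of_nodup_map skey_nodup (List.mem_range.2 a.2)
        (List.mem_range.2 b.2) key)
    · obtain ⟨e, he, h⟩ := exists_index u.2
      exact ⟨⟨e, he⟩, Subtype.ext h.symm⟩
  rw [← Nat.card_congr (Equiv.ofBijective _ hfun), Nat.card_fin]

theorem Usub_le : Usub ≤ P0 := by
  refine (Subgroup.closure_le _).2 ?_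
  rintro _ ⟨j, rfl⟩
  have h := List.all_eq_true.1 src_ok j (List.mem_range.2 j.2)
  simp only [srcOK, Bool.and_eq_true, Nat.blt_eq, List.all_eq_true, List.mem_range,
    beq_iff_eq] at h
  obtain ⟨hk, hx⟩ := h
  generalize sylSrc.getD j (0, 0, 0) = s at hk hx
  have : wel s.2.2 * sgen j = gen ⟨s.2.1, hk⟩ * wel s.1 := Equiv.ext fun x => Fin.ext (by
    rw [Equiv.Perm.mul_apply, Equiv.Perm.mul_apply, gen_rep _ _, wel_val, wel_val, sgen_rep _ _]
    exact hx x x.2)
  have e : sgen j = (wel s.2.2)⁻¹ * (gen ⟨s.2.1, hk⟩ * wel s.1) := by rw [← this]; group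
  rw [SetLike.mem_coe, e]
  exact mul_mem (inv_mem (wel_mem _)) (mul_mem (gen_mem _) (wel_mem _))

/-! ### The cover by cosets -/

theorem exists_coset {g : Equiv.Perm (Fin 112)} (hg : g ∈ P0) :
    ∃ i < 4480, ∃ u ∈ Usub, g = wel i * u := by
  have hg' : g ∈ Submonoid.closure (Set.range gen) := by
    rw [← Subgroup.closure_toSubmonoid_of_finite]; exact hg
  induction hg' using Submonoid.closure_induction_left with
  | one =>
    refine ⟨0, by norm_num, 1, one_mem _, ?_⟩
    rw [mul_one]
    refine det_eq (one_mem _) (wel_aut 0) fun k hk => Fin.ext ?_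
    have := List.all_eq_true.1 wel_zero_ok k hk
    rw [beq_iff_eq] at this
    rw [Equiv.Perm.one_apply, wel_val, pt_val (detPts_lt hk), this]
  | mul_left x hx y hy ih =>
    obtain ⟨j, rfl⟩ := hx
    obtain ⟨i, hi, u, hu, rfl⟩ := ih (Subgroup.le_closure_toSubmonoid _ hy)
    have h := List.all_eq_true.1 trans_ok i (List.mem_range.2 hi)
    simp only [transOK, Bool.and_eq_true] at h
    have key : ∀ {P i' e : ℕ}, Rep (gen j) P → edgeOK P i i' e = true →
        ∃ m < 4480, ∃ u' ∈ Usub, gen j * (wel i * u) = wel m * u' := by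
      intro P i' e hP h
      simp only [edgeOK, Bool.and_eq_true, Nat.blt_eq, List.all_eq_true, beq_iff_eq] at h
      obtain ⟨⟨h1, h2⟩, h3⟩ := h
      refine ⟨i', h1, syl e * u, mul_mem (syl_mem e) hu, ?_⟩
      have : gen j * wel i = wel i' * syl e :=
        det_eq (mul_mem (gen_aut _) (wel_aut _)) (mul_mem (wel_aut _) (syl_aut _)) fun k hk =>
          Fin.ext (by
            rw [Equiv.Perm.mul_apply, Equiv.Perm.mul_apply, hP, wel_val, wel_val, syl_val h2,
              pt_val (detPts_lt hk)]
            exact h3 k hk)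
      rw [← mul_assoc, this, mul_assoc]
    fin_cases j
    exacts [key (gen_rep 0) h.1, key (gen_rep 1) h.2]

end Cfsg.Agent.McLRank
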