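import Cfsg.Agent.McLRank.SubIndex
import Cfsg.Agent.McLRank.HemiChecks

/-!
The hemisystems of the 112 points form four classes under the group, exchanged by automorphisms
normalising it.
-/

set_option autoImplicit false

namespace Cfsg.Agent.McLRank

instance : Std.Symm Adj := ⟨fun _ _ h => h.symm⟩

/-- Exactly two of any four mutually adjacent points are in the set. -/
def IsHemi (T : Fin 112 → Bool) : Prop :=
  ∀ l : List (Fin 112), l.length = 4 → l.Pairwise Adj → l.countP T = 2

theorem IsHemi.comp {T : Fin 112 → Bool} (hT : IsHemi T) {g : Equiv.Perm (Fin 112)}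
    (hg : g ∈ Aut112) : IsHemi (fun x => T (g x)) := by
  intro l hl hp
  have h := hT (l.map g) (by rw [List.length_map, hl])
    (List.pairwise_map.2 (hp.imp fun {a b} hab => (hg a b).2 hab))
  rwa [List.countP_map] at h

theorem cnt_le_countP {m : ℕ} {T : Fin 112 → Bool}
    (h : ∀ x : Fin 112, bit m x = true → T x = true) :
    ∀ c : List ℕ, (∀ x ∈ c, x < 112) → cnt m c ≤ (c.map pt).countP T
  | [], _ => le_rfl
  | x :: c, hc => by
    have ih := cnt_le_countP h c fun y hy => hc y (List.mem_cons_of_mem _ hy)
    have hx : x < 112 := hc x (by simp)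
    rw [cnt, List.map_cons, List.countP_cons]
    cases hb : bit m x
    · simp only [cond_false]
      omega
    · have := h (pt x) (by rw [pt_val hx]; exact hb)
      simp only [cond_true, this, if_true]
      omega

theorem bit_set (i v x : ℕ) : bit (i ||| (1 <<< v)) x = (bit i x || decide (v = x)) := by
  rw [bit_eq_testBit, bit_eq_testBit, Nat.testBit_or, Nat.one_shiftLeft, Nat.testBit_two_pow]

theorem search_sound {T : Fin 112 → Bool} (hT : IsHemi T) :
    ∀ (l : List (ℕ × List (List ℕ))) (i o : ℕ),
      (∀ p ∈ l, p.1 < 112 ∧ ∀ c ∈ p.2, cliqueB c = true ∧ c.Nodup) →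
      (∀ x : Fin 112, bit i x = true → T x = true) →
      (∀ x : Fin 112, bit o x = true → T x = false) →
      (∀ x : Fin 112, (x : ℕ) ∈ l.map Prod.fst ∨ bit i x = true ∨ bit o x = true) →
      search l i o = true → ∃ s ∈ leafData, ∀ x : Fin 112, bit s.1 x = T x
  | [], i, o, _, hi, ho, hall, h => by
    simp only [search, leafOK, List.any_eq_true] at h
    obtain ⟨s, hs, e⟩ := h
    refine ⟨s, hs, fun x => ?_⟩
    rw [Nat.eq_of_beq_eq_true e]
    rcases hall x with h | h | h
    · simp at h
    · rw [h, hi x h]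
    · rw [ho x h]
      by_contra hb
      rw [Bool.not_eq_false] at hb
      exact Bool.noConfusion ((ho x h).symm.trans (hi x hb))
  | (v, cs) :: l, i, o, hl, hi, ho, hall, h => by
    obtain ⟨hv, hcs⟩ := hl (v, cs) (by simp)
    have hl' : ∀ p ∈ l, p.1 < 112 ∧ ∀ c ∈ p.2, cliqueB c = true ∧ c.Nodup :=
      fun p hp => hl p (List.mem_cons_of_mem _ hp)
    have two : ∀ c ∈ cs, ∀ (b : Bool), ∀ m : ℕ,
        (∀ x : Fin 112, bit m x = true → T x = b) → cnt m c ≤ 2 := by
      intro c hc b m hm
      obtain ⟨hq, hnd⟩ := hcs c hc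
      simp only [cliqueB, Bool.and_eq_true, beq_iff_eq, List.all_eq_true, Nat.blt_eq,
        Bool.or_eq_true] at hq
      obtain ⟨⟨hlen, hlt⟩, hadj⟩ := hq
      have hp : (c.map pt).Pairwise Adj := by
        refine List.pairwise_map.2 (List.Pairwise.imp_of_mem ?_ hnd)
        intro a b ha hb hab
        rcases hadj a ha b hb with e | e
        · exact absurd e hab
        · show adjB (pt a) (pt b) = true
          rw [pt_val (hlt a ha), pt_val (hlt b hb)]
          exact e
      have h2 := hT (c.map pt) (by rw [List.length_map, hlen]) hp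
      cases b
      · have h3 : ((c.map pt).countP fun x => !T x) = 2 := by
          have := List.length_eq_countP_add_countP (p := T) (l := c.map pt)
          rw [List.length_map, hlen, h2] at this
          rw [List.countP_congr (q := fun x => decide ¬ T x = true) fun x _ => by simp]
          omega
        exact (cnt_le_countP (T := fun x => !T x) (fun x hx => by simp [hm x hx]) c hlt).trans h3.le
      · exact (cnt_le_countP hm c hlt).trans h2.le
    simp only [search, Bool.and_eq_true] at h
    cases hTv : T (pt v)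
    · have ho' : ∀ x : Fin 112, bit (o ||| (1 <<< v)) x = true → T x = false := by
        intro x hx
        rw [bit_set, Bool.or_eq_true, decide_eq_true_eq] at hx
        rcases hx with hx | hx
        · exact ho x hx
        · rw [show x = pt v from Fin.ext (by rw [pt_val hv, hx]), hTv]
      have hc : (cs.all fun c => Nat.ble (cnt (o ||| (1 <<< v)) c) 2) = true :=
        List.all_eq_true.2 fun c hc => by simpa using two c hc false _ ho'
      have h2 := h.2
      rw [hc, cond_true] at h2
      refine search_sound hT l i _ hl' hi ho' (fun x => ?_) h2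
      rcases hall x with hx | hx | hx
      · simp only [List.map_cons, List.mem_cons] at hx
        rcases hx with hx | hx
        · exact .inr (.inr (by rw [bit_set, hx]; simp))
        · exact .inl hx
      · exact .inr (.inl hx)
      · exact .inr (.inr (by rw [bit_set, hx]; simp))
    · have hi' : ∀ x : Fin 112, bit (i ||| (1 <<< v)) x = true → T x = true := by
        intro x hx
        rw [bit_set, Bool.or_eq_true, decide_eq_true_eq] at hx
        rcases hx with hx | hx
        · exact hi x hx
        · rw [show x = pt v from Fin.ext (by rw [pt_val hv, hx]), hTv]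
      have hc : (cs.all fun c => Nat.ble (cnt (i ||| (1 <<< v)) c) 2) = true :=
        List.all_eq_true.2 fun c hc => by simpa using two c hc true _ hi'
      have h1 := h.1
      rw [hc, cond_true] at h1
      refine search_sound hT l _ o hl' hi' ho (fun x => ?_) h1
      rcases hall x with hx | hx | hx
      · simp only [List.map_cons, List.mem_cons] at hx
        rcases hx with hx | hx
        · exact .inr (.inl (by rw [bit_set, hx]; simp))
        · exact .inl hx
      · exact .inr (.inl (by rw [bit_set, hx]; simp))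
      · exact .inr (.inr hx)

/-! ### The family and the outer elements -/

/-- A member of the family. -/
def famB (j : Fin 162) (x : Fin 112) : Bool := bit (famM j) x

theorem famB_injective : Function.Injective famB := by
  intro a b h
  obtain ⟨-, hnd, hlen, hlt⟩ := fam_rep_ok
  have hb : ∀ c : Fin 162, c.1 < famData.length := fun c => by rw [hlen]; exact c.2
  have hm : ∀ c : Fin 162, famM c < 2 ^ 112 ∧ famData[c.1]'(hb c) = famM c := fun c => by
    have e : famM c = famData[c.1]'(hb c) := List.getD_eq_getElem _ _ _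
    exact ⟨by simpa [e] using List.all_eq_true.1 hlt _ (List.getElem_mem (hb c)), e.symm⟩
  refine Fin.ext ((List.Nodup.getElem_inj_iff hnd (hi := hb a) (hj := hb b)).1 ?_)
  rw [(hm a).2, (hm b).2]
  refine Nat.eq_of_testBit_eq fun k => ?_
  by_cases hk : k < 112
  · have := congrFun h ⟨k, hk⟩
    rwa [famB, famB, bit_eq_testBit, bit_eq_testBit] at this
  · rw [Nat.testBit_lt_two_pow ((hm a).1.trans_le (Nat.pow_le_pow_right (by norm_num) (by omega))),
      Nat.testBit_lt_two_pow ((hm b).1.trans_le (Nat.pow_le_pow_right (by norm_num) (by omega)))]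

theorem famB_move {g : Equiv.Perm (Fin 112)} (hg : g ∈ P0) (j : Fin 162) :
    ∃ j' : Fin 162, ∀ x, famB j' (g x) = famB j x := by
  have hg' : g ∈ Submonoid.closure (Set.range gen) := by
    rw [← Subgroup.closure_toSubmonoid_of_finite]; exact hg
  induction hg' using Submonoid.closure_induction_left generalizing j with
  | one => exact ⟨j, fun _ => rfl⟩
  | mul_left a ha y hy ih =>
    obtain ⟨k, rfl⟩ := ha
    obtain ⟨j', hj'⟩ := ih (Subgroup.le_closure_toSubmonoid _ hy) j
    have h := List.all_eq_true.1 fam_trans_ok j' (List.mem_range.2 j'.2)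
    simp only [List.all_eq_true, List.mem_range, Bool.and_eq_true, Nat.blt_eq, beq_iff_eq] at h
    obtain ⟨h1, h2⟩ := h k k.2
    refine ⟨⟨_, h1⟩, fun x => ?_⟩
    rw [Equiv.Perm.mul_apply, famB, gen_rep _ _, ← hj' x]
    have hb : genP ((k : ℕ) == 1) = (genData.getD k (0, 0)).1 := by fin_cases k <;> rfl
    have := h2 _ (y x).2
    rw [hb] at this
    exact this

theorem famB_trans (j : Fin 162) : ∃ g ∈ P0, ∀ x, famB j (g x) = famB 0 x := by
  have h := List.all_eq_true.1 fam_rep_ok.1 j (List.mem_range.2 j.2)
  simp only [List.all_eq_true, List.mem_range, beq_iff_eq] at h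
  refine ⟨_, wel_mem (famRep.getD j 0), fun x => ?_⟩
  rw [famB, wel_val]
  exact h x x.2

theorem outData_ok (p : Fin 4) : permOK (outData.getD p (0, 0)) = true := by
  have hlt : (p : ℕ) < outData.length := by rw [out_ok.1]; exact p.2
  exact List.all_eq_true.1 out_ok.2.1 _
    (by rw [List.getD_eq_getElem _ _ hlt]; exact List.getElem_mem _)

/-- A representative of an outer class. -/
noncomputable def outEl (p : Fin 4) : Equiv.Perm (Fin 112) := (exists_rep (outData_ok p)).choose

theorem outEl_aut (p : Fin 4) : outEl p ∈ Aut112 := (exists_rep (outData_ok p)).choose_spec.1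

theorem outEl_rep (p : Fin 4) : Rep (outEl p) (outData.getD p (0, 0)).1 :=
  (exists_rep (outData_ok p)).choose_spec.2

theorem outEl_conj (p : Fin 4) {g : Equiv.Perm (Fin 112)} (hg : g ∈ P0) :
    outEl p * g * (outEl p)⁻¹ ∈ P0 := by
  induction hg using Subgroup.closure_induction with
  | one => simp
  | mul a b _ _ iha ihb => simpa [mul_assoc] using mul_mem iha ihb
  | inv a _ iha => simpa [mul_assoc] using inv_mem iha
  | mem a ha =>
    obtain ⟨k, rfl⟩ := ha
    have h := List.all_eq_true.1 out_ok.2.2 p (List.mem_range.2 p.2)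
    simp only [List.all_eq_true, List.mem_range, Bool.and_eq_true, Nat.blt_eq, beq_iff_eq] at h
    obtain ⟨⟨h1, h2⟩, h3⟩ := h k k.2
    generalize (outConj.getD p []).getD k (0, 0) = d at h1 h2 h3
    have hb : genP ((k : ℕ) == 1) = (genData.getD k (0, 0)).1 := by fin_cases k <;> rfl
    rw [hb] at h3
    have e : outEl p * gen k = wel d.1 * syl d.2 * outEl p :=
      det_eq (mul_mem (outEl_aut _) (gen_aut _))
        (mul_mem (mul_mem (wel_aut _) (syl_aut _)) (outEl_aut _)) fun x hx => Fin.ext (by
          simp only [Equiv.Perm.mul_apply, outEl_rep _ _, gen_rep _ _, wel_val, syl_val h2,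
            pt_val (detPts_lt hx)]
          exact h3 x hx)
    rw [e, mul_inv_cancel_right]
    exact mul_mem (wel_mem _) (Usub_le (syl_mem _))

theorem outEl_conj' (p : Fin 4) {g : Equiv.Perm (Fin 112)} (hg : g ∈ P0) :
    (outEl p)⁻¹ * g * outEl p ∈ P0 := by
  have hle : P0.map (MulAut.conj (outEl p)).toMonoidHom ≤ P0 := by
    rintro _ ⟨a, ha, rfl⟩
    exact outEl_conj p ha
  have he : P0.map (MulAut.conj (outEl p)).toMonoidHom = P0 := Subgroup.eq_of_le_of_card_ge hle
    (le_of_eq (Nat.card_congr (P0.equivMapOfInjective _ (MulAut.conj (outEl p)).injective).toEquiv))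
  rw [← he] at hg
  obtain ⟨a, ha, rfl⟩ := hg
  simpa [mul_assoc] using ha

/-- Every hemisystem is a member of the family, up to one of four automorphisms. -/
theorem exists_family {T : Fin 112 → Bool} (hT : IsHemi T) (hne : ∃ x, T x = true) :
    ∃ (p : Fin 4) (j : Fin 162), ∀ x, T (outEl p x) = famB j x := by
  obtain ⟨-, hnb, -, hnblt, -⟩ := sub_ok
  obtain ⟨v, hv⟩ := hne
  obtain ⟨g, hg, hgv⟩ := exists_move v
  have hT1 := hT.comp (P0_le_aut hg)
  -- a neighbour of 0 inside
  obtain ⟨w, hw0, hw⟩ : ∃ w : Fin 112, Adj (pt 0) w ∧ T (g w) = true := by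
    obtain ⟨l, hl4, hlp, hl0⟩ : ∃ l : List (Fin 112), l.length = 4 ∧ l.Pairwise Adj ∧ pt 0 ∈ l := by
      obtain ⟨hQlen, hQlt⟩ := gens_fix_ok.2
      have hQ : cliqueB cliqueQ = true ∧ cliqueQ.Nodup ∧ 0 ∈ cliqueQ := by decide +kernel
      simp only [cliqueB, Bool.and_eq_true, beq_iff_eq, List.all_eq_true, Nat.blt_eq,
        Bool.or_eq_true] at hQ
      obtain ⟨⟨⟨hlen', hlt'⟩, hadj⟩, hnd, h0⟩ := hQ
      refine ⟨cliqueQ.map pt, by rw [List.length_map, hlen'],
        List.pairwise_map.2 (List.Pairwise.imp_of_mem ?_ hnd), List.mem_map.2 ⟨0, h0, rfl⟩⟩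
      intro a b ha hb hab
      rcases hadj a ha b hb with e | e
      · exact absurd e hab
      · show adjB (pt a) (pt b) = true
        rw [pt_val (hlt' a ha), pt_val (hlt' b hb)]
        exact e
    have h2 := hT1 l hl4 hlp
    by_contra hc
    push Not at hc
    have hle : l.countP (fun x => T (g x)) ≤ l.countP (fun x => decide (x = pt 0)) := by
      refine List.countP_mono_left fun x hx hTx => ?_
      by_contra hne
      rw [decide_eq_true_eq] at hne
      refine hc x ?_ hTx
      exact hlp.forall hl0 hx (Ne.symm hne)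
    have hnd : l.Nodup := hlp.imp fun h => h.ne
    have : l.countP (fun x => decide (x = pt 0)) ≤ 1 := by
      have := List.nodup_iff_count_le_one.1 hnd (pt 0)
      rw [List.count_eq_countP] at this
      simpa [beq_iff_eq] using (le_trans (le_of_eq (List.countP_congr fun x _ => by simp)) this)
    omega
  obtain ⟨h, hh, hhw⟩ := exists_suborbit w (fun e => hw0.ne e.symm)
  have hadj0 : adjB 0 w = true := by
    have := hw0
    rwa [Adj, pt_val (by norm_num)] at this
  rw [hadj0, cond_true] at hhw
  set T2 : Fin 112 → Bool := fun x => T ((g * h) x) with hT2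
  have hT2' : IsHemi T2 := hT.comp (P0_le_aut (mul_mem hg hh.1))
  have t0 : T2 (pt 0) = true := by
    show T ((g * h) (pt 0)) = true
    rw [Equiv.Perm.mul_apply, show h (pt 0) = pt 0 from hh.2, hgv]; exact hv
  have t1 : T2 (pt nb) = true := by
    rw [hT2]; simp only [Equiv.Perm.mul_apply, hhw]; exact hw
  obtain ⟨hfirst, hok, hcov⟩ := searchData_ok
  have hok' : ∀ p ∈ searchData, p.1 < 112 ∧ ∀ c ∈ p.2, cliqueB c = true ∧ c.Nodup := by
    intro p hp
    simpa using List.all_eq_true.1 hok p hp
  have hinit : ∀ x : Fin 112, bit (1 ||| (1 <<< nb)) x = true ↔ x = pt 0 ∨ x = pt nb := by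
    intro x
    rw [show (1 : ℕ) ||| (1 <<< nb) = (1 <<< 0) ||| (1 <<< nb) by simp, bit_set, bit_eq_testBit,
      Nat.one_shiftLeft, Nat.testBit_two_pow, Bool.or_eq_true, decide_eq_true_eq, decide_eq_true_eq,
      Fin.ext_iff, Fin.ext_iff, pt_val (by norm_num), pt_val hnblt]
    constructor <;> rintro (e | e) <;> first | exact .inl e.symm | exact .inr e.symm
  obtain ⟨s, hs, hsx⟩ := search_sound hT2' (searchData.drop 2) _ 0
    (fun p hp => hok' p (List.mem_of_mem_drop hp))
    (fun x hx => by rcases (hinit x).1 hx with rfl | rfl <;> assumption)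
    (fun x hx => by simp [bit_eq_testBit] at hx)
    (fun x => by
      have hx : (x : ℕ) ∈ searchData.map Prod.fst := by
        simpa using List.all_eq_true.1 hcov x.1 (List.mem_range.2 x.2)
      rw [← List.take_append_drop 2 (searchData.map Prod.fst), List.mem_append, hfirst,
        ← List.map_drop] at hx
      rcases hx with hx | hx
      · refine .inr (.inl ((hinit x).2 ?_))
        simp only [List.mem_cons, List.not_mem_nil, or_false] at hx
        rcases hx with e | e
        · exact .inl (Fin.ext (by rw [e, pt_val (by norm_num)]))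
        · exact .inr (Fin.ext (by rw [e, pt_val hnblt]))
      · exact .inl hx)
    search_ok
  have hleaf := List.all_eq_true.1 leaf_ok s hs
  simp only [Bool.and_eq_true, Nat.blt_eq, List.all_eq_true, List.mem_range, beq_iff_eq] at hleaf
  obtain ⟨⟨hp, hj⟩, hlx⟩ := hleaf
  set P : Fin 4 := ⟨s.2.1, hp⟩
  set g' := (outEl P)⁻¹ * (g * h) * outEl P with hg'
  obtain ⟨j', hj'⟩ := famB_move (outEl_conj' P (mul_mem hg hh.1)) ⟨s.2.2, hj⟩
  refine ⟨P, j', fun x => ?_⟩
  have e1 : T2 (outEl P (g'⁻¹ x)) = famB ⟨s.2.2, hj⟩ (g'⁻¹ x) := by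
    rw [← hsx (outEl P (g'⁻¹ x)), outEl_rep _ _]
    exact hlx _ (g'⁻¹ x).2
  have e2 : (g * h) (outEl P (g'⁻¹ x)) = outEl P x := by
    rw [← Equiv.Perm.mul_apply, ← Equiv.Perm.mul_apply, hg']
    congr 1
    group
  rw [hT2] at e1
  simp only [e2] at e1
  rw [e1, ← hj' (g'⁻¹ x)]
  congr 1
  simp [hg']

end Cfsg.Agent.McLRank
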