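import Cfsg.Agent.McLRank.AutBound
import Cfsg.Agent.Sporadic.McLUnitary

/-!
The group on 112 points is the point stabiliser of the McLaughlin group, hence `PSU(4,3)`.
-/

set_option autoImplicit false

namespace Cfsg.Agent.McLRank

open Cfsg Cfsg.Agent.Leech Cfsg.Agent.McLUnitary

theorem exists_nv_perm (s : ↥S0) :
    ∃ g : Equiv.Perm (Fin 112), ∀ i, (s : Co0) • nv i = nv (g i) := by
  choose f hf using fun i => exists_nv_smul s.2 i
  have hinj : Function.Injective f := fun i j h => by
    refine nv_injective (MulAction.injective (s : Co0) ?_)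
    show (s : Co0) • nv i = (s : Co0) • nv j
    rw [hf, hf, h]
  exact ⟨Equiv.ofBijective f ⟨hinj, Finite.surjective_of_injective hinj⟩, hf⟩

/-- The action of the point stabiliser on the 112 vectors. -/
noncomputable def nvHom : ↥S0 →* Equiv.Perm (Fin 112) :=
  MonoidHom.mk' (fun s => (exists_nv_perm s).choose) fun s t => Equiv.ext fun i => by
    apply nv_injective
    rw [← (exists_nv_perm (s * t)).choose_spec i, Equiv.Perm.mul_apply,
      ← (exists_nv_perm s).choose_spec, ← (exists_nv_perm t).choose_spec i, Subgroup.coe_mul,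
      mul_smul]

theorem nvHom_spec (s : ↥S0) (i : Fin 112) :
    (s : Co0) • nv i = nv (nvHom s i) := (exists_nv_perm s).choose_spec i

theorem nvHom_injective : Function.Injective nvHom := by
  refine (MonoidHom.ker_eq_bot_iff _).1 (eq_bot_iff.2 fun s hs => ?_)
  rw [MonoidHom.mem_ker] at hs
  refine Subgroup.mem_bot.2 (Subtype.ext (McLUnitary.faithful s.2 fun i => ?_))
  rw [nvHom_spec, hs, Equiv.Perm.one_apply]

set_option maxRecDepth 20000 in
theorem genWords_ok : (genWordsB.all fun w => w.all fun k => Nat.blt k 8) = true ∧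
    genWordsB.length = 2 ∧
    ((List.range 2).all fun k => (List.range 112).all fun i =>
      McLUnitary.wordIdx (genWordsB.getD k []) i == app (genData.getD k (0, 0)).1 i) = true := by
  decide +kernel

theorem P0_le_range : P0 ≤ nvHom.range := by
  refine (Subgroup.closure_le _).2 ?_
  rintro _ ⟨k, rfl⟩
  obtain ⟨hlt, hlen, hval⟩ := genWords_ok
  have hk : (k : ℕ) < genWordsB.length := by rw [hlen]; exact k.2
  obtain ⟨s, hs, hsi⟩ := exists_word_el (genWordsB.getD k []) fun a ha => by
    have := List.all_eq_true.1 hlt (genWordsB.getD k []) (by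
      rw [List.getD_eq_getElem _ _ hk]; exact List.getElem_mem _)
    simpa using List.all_eq_true.1 this a ha
  refine ⟨⟨s, hs⟩, Equiv.ext fun i => ?_⟩
  obtain ⟨j, hj, hsj⟩ := hsi i
  have he : nvHom ⟨s, hs⟩ i = j := nv_injective ((nvHom_spec ⟨s, hs⟩ i).symm.trans hsj)
  have h := List.all_eq_true.1 hval k (List.mem_range.2 k.2)
  simp only [List.all_eq_true, List.mem_range, beq_iff_eq] at h
  exact Fin.ext (by rw [he, hj, gen_rep _ _]; exact h i i.2)

theorem card_P0_ge : 330 * 729 ≤ Nat.card ↥P0 := by
  classical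
  obtain ⟨hnd, hlen⟩ := fkey_nodup
  have hi : ∀ a : Fin 330, a.1 < flagRep.length := fun a => by rw [hlen]; exact a.2
  have hinj : Function.Injective fun p : Fin 330 × ↥Usub =>
      (⟨wel (flagRep[p.1.1]'(hi p.1)) * p.2, mul_mem (wel_mem _) (Usub_le p.2.2)⟩ : ↥P0) := by
    rintro ⟨a, u⟩ ⟨b, v⟩ h
    have h : wel (flagRep[a.1]'(hi a)) * (u : Equiv.Perm (Fin 112)) =
        wel (flagRep[b.1]'(hi b)) * v := congrArg Subtype.val h
    set i := flagRep[a.1]'(hi a)
    set j := flagRep[b.1]'(hi b)
    set w := (v : Equiv.Perm (Fin 112)) * (u : Equiv.Perm (Fin 112))⁻¹ with hw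
    have hwU : w ∈ Usub := mul_mem v.2 (inv_mem u.2)
    have hij : wel i = wel j * w := by rw [hw, ← mul_assoc, ← h, mul_inv_cancel_right]
    have hzero : ∀ c, wimg c 0 = (wel c (pt 0) : ℕ) := fun c => by
      rw [wel_val, pt_val (by norm_num)]
    obtain ⟨-, hQlen, hQlt⟩ := gens_fix_ok
    have hQnd : cliqueQ.Nodup := by decide +kernel
    have hsum : ∀ c, (cliqueQ.map fun x => 2 ^ wimg c x).sum =
        ∑ x ∈ (Finset.univ.filter fun x : Fin 112 => qB x = true), 2 ^ ((wel c x : Fin 112) : ℕ) := by
      intro c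
      rw [← List.sum_toFinset _ hQnd]
      refine Finset.sum_bij (fun x _ => pt x) (fun x hx => ?_) (fun x hx y hy e => ?_)
        (fun y hy => ?_) (fun x hx => ?_)
      · have hx' := List.mem_toFinset.1 hx
        have hlt : x < 112 := by simpa using List.all_eq_true.1 hQlt x hx'
        simp [qB, pt_val hlt, hx']
      · have hlt : ∀ z ∈ cliqueQ.toFinset, z < 112 := fun z hz => by
          simpa using List.all_eq_true.1 hQlt z (List.mem_toFinset.1 hz)
        have := congrArg (fun z : Fin 112 => (z : ℕ)) e
        simpa [pt_val (hlt x hx), pt_val (hlt y hy)] using this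
      · simp only [Finset.mem_filter, Finset.mem_univ, true_and, qB, List.contains_eq_mem,
          decide_eq_true_eq] at hy
        exact ⟨y, List.mem_toFinset.2 hy, pt_self y⟩
      · have hlt : x < 112 := by
          simpa using List.all_eq_true.1 hQlt x (List.mem_toFinset.1 hx)
        rw [wel_val, pt_val hlt]
    have hk : fkey i = fkey j := by
      unfold fkey
      rw [hzero, hzero, hsum, hsum, hij, Equiv.Perm.mul_apply, Usub_fix hwU]
      congr 2
      refine Finset.sum_equiv w (fun x => ?_) (fun x _ => by rw [Equiv.Perm.mul_apply])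
      simp [Usub_QStab hwU x]
    have ha : a = b := by
      have := (List.Nodup.getElem_inj_iff hnd (i := a.1) (j := b.1)
        (hi := by rw [List.length_map]; exact hi a)
        (hj := by rw [List.length_map]; exact hi b)).1 (by simpa using hk)
      exact Fin.ext this
    subst ha
    exact Prod.ext rfl (Subtype.ext (mul_left_cancel h))
  have := Nat.card_le_card_of_injective _ hinj
  rwa [Nat.card_prod, Nat.card_fin, card_Usub] at this

/-- The group on 112 points as a unitary group. -/
theorem exists_iso (F : Type) [Field F] [Fintype F] (hF : Fintype.card F = 9) :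
    Nonempty (↥P0 ≃* Cfsg.PSU 4 F 3) := by
  obtain ⟨e⟩ := nonempty_iso hF
  let r : ↥S0 ≃* ↥nvHom.range := MonoidHom.ofInjective nvHom_injective
  have hS : Cfsg.Agent.Classical.U.SqField F 3 :=
    Cfsg.Agent.Classical.U.sqField_of_fintype (by rw [hF]; norm_num)
  haveI := Cfsg.Agent.Classical.U.isSimpleGroup_PSU hS (n := 4) (by norm_num) (by norm_num)
  haveI : IsSimpleGroup ↥nvHom.range := (e.symm.trans r).isSimpleGroup_congr.1 inferInstance
  have hc : Nat.card ↥nvHom.range = 3265920 := by rw [← Nat.card_congr r.toEquiv, card_S0]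
  have htop : P0.subgroupOf nvHom.range = ⊤ := by
    refine eq_top_of_small_index _ fun hd => ?_
    have h2 := Subgroup.card_mul_index (P0.subgroupOf nvHom.range)
    rw [Nat.card_congr (Subgroup.subgroupOfEquivOfLe P0_le_range).toEquiv, hc] at h2
    have hidx : (P0.subgroupOf nvHom.range).index ≤ 13 := by
      have := card_P0_ge
      nlinarith
    have h13 := hd.trans (Nat.factorial_dvd_factorial hidx)
    rw [hc] at h13
    exact absurd h13 (by decide)
  have he : nvHom.range = P0 := le_antisymm (Subgroup.subgroupOf_eq_top.1 htop) P0_le_range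
  exact ⟨((MulEquiv.subgroupCongr he).symm.trans r.symm).trans e⟩

theorem card_P0 : Nat.card ↥P0 = 3265920 := by
  haveI : Fintype (GaloisField 3 2) := Fintype.ofFinite _
  have hF : Fintype.card (GaloisField 3 2) = 9 := by
    rw [← Nat.card_eq_fintype_card, GaloisField.card 3 2 (by norm_num)]
    norm_num
  obtain ⟨e⟩ := exists_iso (GaloisField 3 2) hF
  rw [Nat.card_congr e.toEquiv]
  exact card_PSU_four_three hF

theorem isSimpleGroup_P0 : IsSimpleGroup ↥P0 := by
  haveI : Fintype (GaloisField 3 2) := Fintype.ofFinite _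
  have hF : Fintype.card (GaloisField 3 2) = 9 := by
    rw [← Nat.card_eq_fintype_card, GaloisField.card 3 2 (by norm_num)]
    norm_num
  obtain ⟨e⟩ := exists_iso (GaloisField 3 2) hF
  have hS : Cfsg.Agent.Classical.U.SqField (GaloisField 3 2) 3 :=
    Cfsg.Agent.Classical.U.sqField_of_fintype (by rw [hF]; norm_num)
  haveI := Cfsg.Agent.Classical.U.isSimpleGroup_PSU hS (n := 4) (by norm_num) (by norm_num)
  exact e.isSimpleGroup_congr.2 inferInstance

end Cfsg.Agent.McLRank
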