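import Cfsg.Agent.McLRank.Checks
import Cfsg.Agent.McLRank.HemiData

/-!
Kernel checks for the double cosets, the flags and the suborbits.
-/

set_option autoImplicit false

namespace Cfsg.Agent.McLRank

/-- Membership in the fixed clique. -/
def qB (x : ℕ) : Bool := cliqueQ.contains x

set_option maxRecDepth 20000 in
theorem gens_fix_ok : (List.range 3).all (fun j =>
    app (sylGen.getD j (0, 0)).1 0 == 0 &&
    (List.range 112).all fun x => qB (app (sylGen.getD j (0, 0)).1 x) == qB x) = true ∧
    cliqueQ.length = 4 ∧ cliqueQ.all (fun x => Nat.blt x 112) = true := by decide +kernel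

/-- The check of a double coset label. -/
def labOK (i : ℕ) : Bool :=
  let r := tget labT 64 i (0, 0, 0)
  Nat.blt r.2.1 729 && Nat.blt r.2.2 729 && Nat.blt r.1 32 &&
    detPts.all fun k => simg r.2.1 (wimg (dblData.getD r.1 (0, 0)).1 k) == wimg i (simg r.2.2 k)

set_option maxRecDepth 20000 in
theorem lab_ok : (List.range 4480).all labOK = true := by decide +kernel

/-- The seventh iterate. -/
def seven (i e x : ℕ) : ℕ :=
  let f := fun y => wimg i (simg e y)
  f (f (f (f (f (f (f x))))))

/-- A representative fixes 0 or the clique, or gives an element of order 7. -/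
def dblOK (d : ℕ) : Bool :=
  let p := dblData.getD d (0, 0)
  wimg p.1 0 == 0 || ((List.range 112).all fun x => qB (wimg p.1 x) == qB x) ||
    (Nat.blt p.2 729 && (detPts.all fun k => seven p.1 p.2 k == k) &&
      (detPts.any fun k => !(wimg p.1 (simg p.2 k) == k)))

set_option maxRecDepth 20000 in
theorem dbl_ok : (List.range 32).all dblOK = true := by decide +kernel

/-- The number of cosets fixing the clique. -/
def qCount : ℕ := (List.range 4480).countP fun i => cliqueQ.all fun x => qB (wimg i x)

set_option maxRecDepth 20000 in
theorem qCount_le : qCount ≤ 16 := by decide +kernel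

set_option maxRecDepth 20000 in
theorem pointRep_ok : (List.range 112).all (fun v => wimg (pointRep.getD v 0) 0 == v) = true := by
  decide +kernel

/-- The key of a flag. -/
def fkey (i : ℕ) : ℕ := wimg i 0 + 128 * (cliqueQ.map fun x => 2 ^ wimg i x).sum

set_option maxRecDepth 20000 in
theorem fkey_nodup : (flagRep.map fkey).Nodup ∧ flagRep.length = 330 := by decide +kernel

/-- The check of the suborbits of a point stabiliser. -/
def subOK (v : ℕ) : Bool :=
  let r := suborbitRep.getD v (0, 0)
  v == 0 || (Nat.blt r.2 729 && wimg r.1 0 == 0 &&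
    wimg r.1 (simg r.2 (bif adjB 0 v then nb else nn)) == v)

set_option maxRecDepth 20000 in
theorem sub_ok : (List.range 112).all subOK = true ∧ adjB 0 nb = true ∧ adjB 0 nn = false ∧
    nb < 112 ∧ nn < 112 ∧ nn ≠ 0 := by decide +kernel

end Cfsg.Agent.McLRank
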