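import Cfsg.Agent.McLRank.Suborbit
import Cfsg.Agent.McLRank.Hemi

/-!
A rank three action of degree 275 whose point stabiliser is the group on 112 points is labelled
by the model graph.
-/

set_option autoImplicit false

namespace Cfsg.Agent.McLRank

open MulAction

/-- The number of common points of two members of the family. -/
def inter (i j : Fin 162) : ℕ :=
  (Finset.univ.filter fun x : Fin 112 => famB i x = true ∧ famB j x = true).card

/-- The points of the model. -/
abbrev Pt : Type := Option (Fin 112 ⊕ Fin 162)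

/-- Adjacency of the model. -/
def AdjPt : Pt → Pt → Prop
  | none, none => False
  | none, some (.inl _) => True
  | none, some (.inr _) => False
  | some (.inl _), none => True
  | some (.inr _), none => False
  | some (.inl x), some (.inl y) => Adj x y
  | some (.inl x), some (.inr j) => famB j x = true
  | some (.inr j), some (.inl x) => famB j x = true
  | some (.inr i), some (.inr j) => i ≠ j ∧ inter i j = 20

/-- A point of the 112, as a point of the model. -/
abbrev ptB (x : Fin 112) : Pt := some (.inl x)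

/-- A member of the family, as a point of the model. -/
abbrev ptC (j : Fin 162) : Pt := some (.inr j)

theorem countP_finRange (m : ℕ) : ((List.range 112).countP fun x => bit m x) =
    (Finset.univ.filter fun x : Fin 112 => bit m x = true).card := by
  rw [← List.map_coe_finRange_eq_range (n := 112), List.countP_map, List.countP_eq_length_filter,
    ← List.toFinset_card_of_nodup ((List.nodup_finRange 112).filter _)]
  congr 1
  ext x
  simp

theorem cnt_filter (m : ℕ) (p : ℕ → Bool) : ∀ l : List ℕ,
    cnt m (l.filter p) = l.countP fun x => p x && bit m x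
  | [] => rfl
  | x :: l => by
    rw [List.filter_cons, List.countP_cons]
    cases hp : p x <;> simp [cnt, cnt_filter m p l] <;> cases bit m x <;> simp <;> omega

theorem inter_zero (j : Fin 162) : inter 0 j = inter0 j := by
  rw [inter0, cnt_filter, inter]
  have h : ∀ x : Fin 112, (famB 0 x = true ∧ famB j x = true) ↔
      (bit (famM 0) x && bit (famM j) x) = true := fun x => by
    rw [Bool.and_eq_true]; rfl
  rw [Finset.filter_congr fun x _ => h x, ← List.map_coe_finRange_eq_range (n := 112), List.countP_map,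
    List.countP_eq_length_filter,
    ← List.toFinset_card_of_nodup ((List.nodup_finRange 112).filter _)]
  congr 1
  ext x
  simp

theorem inter_comm (i j : Fin 162) : inter i j = inter j i := by
  unfold inter
  congr 1
  ext x
  simp [and_comm]

theorem famB_zero_card (j : Fin 162) :
    (Finset.univ.filter fun x : Fin 112 => famB j x = true).card = 56 := by
  obtain ⟨g, -, hg'⟩ := famB_trans j
  have h0 : (Finset.univ.filter fun x : Fin 112 => famB 0 x = true).card = 56 :=
    (countP_finRange (famM 0)).symm.trans lambda_ok.2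
  rw [← h0]
  exact (Finset.card_equiv g fun x => by simp [hg' x]).symm

/-- A family index moved by an element. -/
theorem exists_perm_fam {g : Equiv.Perm (Fin 112)} (hg : g ∈ P0) :
    ∃ σ : Equiv.Perm (Fin 162), ∀ j x, famB (σ j) (g x) = famB j x := by
  choose f hf using famB_move hg
  have hinj : Function.Injective f := fun i j h => famB_injective (funext fun x => by
    rw [← hf i x, ← hf j x, h])
  exact ⟨Equiv.ofBijective f ⟨hinj, Finite.surjective_of_injective hinj⟩, hf⟩

theorem inter_spec (i : Fin 162) :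
    (∀ j, j ≠ i → inter i j = 20 ∨ inter i j = 32) ∧
      (Finset.univ.filter fun j => j ≠ i ∧ inter i j = 20).card = 56 := by
  obtain ⟨g, hg, hgi⟩ := famB_trans i
  obtain ⟨σ, hσ⟩ := exists_perm_fam hg
  have h0 : σ 0 = i := famB_injective (funext fun y => by
    obtain ⟨x, rfl⟩ := g.surjective y
    rw [hσ, hgi])
  have hinter : ∀ j, inter i (σ j) = inter 0 j := fun j => by
    unfold inter
    refine (Finset.card_equiv g fun x => ?_).symm
    simp [hgi x, hσ j x]
  obtain ⟨h1, h2, -⟩ := inter_ok
  refine ⟨fun j hj => ?_, ?_⟩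
  · obtain ⟨k, rfl⟩ := σ.surjective j
    rw [hinter, inter_zero]
    have := List.all_eq_true.1 h1 k (List.mem_range.2 k.2)
    simp only [Bool.or_eq_true, Nat.beq_eq] at this
    rcases this with (e | e) | e
    · exact absurd (by rw [← h0, show k = 0 from Fin.ext e]) hj
    · exact .inl e
    · exact .inr e
  · have e : (Finset.univ.filter fun j => j ≠ i ∧ inter i j = 20).card =
        (Finset.univ.filter fun j : Fin 162 => j ≠ 0 ∧ inter0 j = 20).card :=
      (Finset.card_equiv σ fun j => by
        simp only [Finset.mem_filter, Finset.mem_univ, true_and, hinter, inter_zero, ne_eq]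
        rw [← h0, σ.injective.eq_iff]).symm
    rw [e, ← h2, ← List.map_coe_finRange_eq_range (n := 162), List.countP_map,
      List.countP_eq_length_filter,
      ← List.toFinset_card_of_nodup ((List.nodup_finRange 162).filter _)]
    refine congrArg Finset.card ?_
    ext j
    simp only [Finset.mem_filter, Finset.mem_univ, true_and, List.toFinset_filter,
      List.toFinset_finRange, Function.comp_apply, Bool.and_eq_true, Nat.beq_eq,
      Bool.not_eq_true', ne_eq]
    rw [Bool.eq_false_iff, Ne, Nat.beq_eq, Fin.ext_iff, Fin.val_zero]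

variable {H V : Type*} [Group H] [MulAction H V] [Fintype V] [DecidableEq V] {a b c : V}

/-- The stabiliser acts on the 112 neighbours as the group on 112 points. -/
theorem Act.exists_label (A : Act H V a b c) (e : ↥(stabilizer H a) ≃* ↥P0) :
    ∃ ψ : Fin 112 → V, Function.Injective ψ ∧
      (∀ y, Rel H a b a y ↔ ∃ w, ψ w = y) ∧
      ∀ (h : ↥(stabilizer H a)) (w : Fin 112),
        (h : H) • ψ w = ψ ((e h : Equiv.Perm (Fin 112)) w) := by
  classical
  haveI : Finite ↥(stabilizer H a) := Finite.of_equiv _ e.symm.toEquiv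
  set J : Subgroup ↥(stabilizer H a) := stabilizer ↥(stabilizer H a) b
  set J' : Subgroup (Equiv.Perm (Fin 112)) := J.map (P0.subtype.comp e.toMonoidHom)
  have hinj : Function.Injective (P0.subtype.comp e.toMonoidHom) :=
    P0.subtype_injective.comp e.injective
  have hJ : Nat.card ↥J' = 29160 := by
    have h := Subgroup.card_mul_index J
    rw [index_stabilizer, A.cardB, Nat.card_congr e.toEquiv, card_P0] at h
    rw [Nat.card_congr (J.equivMapOfInjective _ hinj).symm.toEquiv]
    omega
  obtain ⟨v, hv⟩ := exists_eq_stab card_P0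
    (show J' ≤ P0 by rintro _ ⟨k, -, rfl⟩; exact (e k).2) hJ
  have hmem : ∀ p : ↥P0, (p : Equiv.Perm (Fin 112)) v = v ↔ ((e.symm p : ↥(stabilizer H a)) : H) • b = b := by
    intro p
    constructor
    · intro hp
      have h : (p : Equiv.Perm (Fin 112)) ∈ J' := hv ▸ (⟨p.2, hp⟩ : (p : Equiv.Perm (Fin 112)) ∈ stabP v)
      obtain ⟨k, hk, hkp⟩ := h
      have : k = e.symm p := by
        rw [MulEquiv.eq_symm_apply]
        exact Subtype.ext hkp
      subst this
      exact hk
    · intro hp
      have h : (p : Equiv.Perm (Fin 112)) ∈ J' := ⟨e.symm p, hp, by simp⟩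
      rw [hv] at h
      exact h.2
  have hex : ∀ w : Fin 112, ∃ p : ↥P0, (p : Equiv.Perm (Fin 112)) v = w := fun w => by
    obtain ⟨g₁, h₁, e₁⟩ := exists_move v
    obtain ⟨g₂, h₂, e₂⟩ := exists_move w
    refine ⟨⟨g₂ * g₁⁻¹, mul_mem h₂ (inv_mem h₁)⟩, ?_⟩
    show (g₂ * g₁⁻¹) v = w
    rw [Equiv.Perm.mul_apply, ← e₁, Equiv.Perm.inv_def, Equiv.symm_apply_apply, e₂]
  choose p hp using hex
  have hkey : ∀ q : ↥P0, ((e.symm q : ↥(stabilizer H a)) : H) • b =
      ((e.symm (p ((q : Equiv.Perm (Fin 112)) v)) : ↥(stabilizer H a)) : H) • b := by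
    intro q
    set r := p ((q : Equiv.Perm (Fin 112)) v)
    have h := (hmem (r⁻¹ * q)).1 (by
      rw [Subgroup.coe_mul, Equiv.Perm.mul_apply, Subgroup.coe_inv, Equiv.Perm.inv_eq_iff_eq]
      exact (hp _).symm)
    rw [map_mul, map_inv, Subgroup.coe_mul, Subgroup.coe_inv, mul_smul, inv_smul_eq_iff] at h
    exact h
  refine ⟨fun w => ((e.symm (p w) : ↥(stabilizer H a)) : H) • b, fun w w' h => ?_, fun y => ?_, fun h w => ?_⟩
  · have h2 := (hmem ((p w)⁻¹ * p w')).2 (by
      rw [map_mul, map_inv, Subgroup.coe_mul, Subgroup.coe_inv, mul_smul, inv_smul_eq_iff]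
      exact h.symm)
    rw [Subgroup.coe_mul, Equiv.Perm.mul_apply, Subgroup.coe_inv, Equiv.Perm.inv_eq_iff_eq, hp,
      hp] at h2
    exact h2.symm
  · rw [rel_base_iff]
    constructor
    · rintro ⟨k, rfl⟩
      refine ⟨(e k : Equiv.Perm (Fin 112)) v, ?_⟩
      show ((e.symm (p _) : ↥(stabilizer H a)) : H) • b = k • b
      rw [← hkey (e k), e.symm_apply_apply]
      rfl
    · rintro ⟨w, rfl⟩
      exact ⟨e.symm (p w), rfl⟩
  · show (h : H) • ((e.symm (p w) : ↥(stabilizer H a)) : H) • b = _
    rw [← mul_smul, ← Subgroup.coe_mul,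
      show h * e.symm (p w) = e.symm (e h * p w) by rw [map_mul, e.symm_apply_apply], hkey]
    rw [Subgroup.coe_mul, Equiv.Perm.mul_apply, hp]

theorem ne_nb : ¬ Adj (pt 0) (pt nn) ∧ pt nn ≠ pt 0 := by
  obtain ⟨-, -, h, -, hlt, hne⟩ := sub_ok
  constructor
  · simp only [Adj, pt_val (show 0 < 112 by norm_num), pt_val hlt, h]
    simp
  · intro e
    have := congrArg (fun x : Fin 112 => (x : ℕ)) e
    simp only [pt_val (show 0 < 112 by norm_num), pt_val hlt] at this
    exact hne this

/-- The neighbours are labelled as the graph on 112 points. -/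
theorem Act.label_adj (A : Act H V a b c) {θ : ↥(stabilizer H a) →* Equiv.Perm (Fin 112)}
    (hθ : θ.range = P0) {ψ : Fin 112 → V} (hinj : Function.Injective ψ)
    (hrange : ∀ y, Rel H a b a y ↔ ∃ w, ψ w = y)
    (hequiv : ∀ (h : ↥(stabilizer H a)) (w : Fin 112), (h : H) • ψ w = ψ (θ h w))
    (x y : Fin 112) : Rel H a b (ψ x) (ψ y) ↔ Adj x y := by
  classical
  have hinv : ∀ {g : Equiv.Perm (Fin 112)}, g ∈ P0 → ∀ x y,
      Rel H a b (ψ (g x)) (ψ (g y)) ↔ Rel H a b (ψ x) (ψ y) := by
    intro g hg x y
    rw [← hθ] at hg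
    obtain ⟨h, rfl⟩ := hg
    rw [← hequiv, ← hequiv, rel_smul]
  obtain ⟨g, hg, rfl⟩ := exists_move x
  obtain ⟨y, rfl⟩ := g.surjective y
  rw [hinv hg, (mem_Aut112.1 (P0_le_aut hg)) (pt 0) y]
  set N := Finset.univ.filter fun y => Rel H a b (ψ (pt 0)) (ψ y) with hN
  have cN : N.card = 30 := by
    have h := A.com_adj ((hrange _).2 ⟨pt 0, rfl⟩)
    rw [A.params.1] at h
    rw [← h, ← Finset.card_image_of_injective N hinj, ← Set.ncard_coe_finset]
    congr 1
    ext z
    simp only [hN, Finset.coe_image, Set.mem_image, Finset.coe_filter, Finset.mem_univ, true_and,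
      Set.mem_ofPred_eq, com]
    constructor
    · rintro ⟨w, hw, rfl⟩
      exact ⟨(hrange _).2 ⟨w, rfl⟩, hw⟩
    · rintro ⟨h1, h2⟩
      obtain ⟨w, rfl⟩ := (hrange _).1 h1
      exact ⟨w, h2, rfl⟩
  set M := Finset.univ.filter fun y => Adj (pt 0) y with hM
  have cM : M.card = 30 := by
    rw [← adj_ok.2, ← List.map_coe_finRange_eq_range (n := 112), List.countP_map,
      List.countP_eq_length_filter,
      ← List.toFinset_card_of_nodup ((List.nodup_finRange 112).filter _)]
    refine congrArg Finset.card ?_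
    ext z
    simp [hM, Adj, pt_val (show 0 < 112 by norm_num)]
  have hsub : N ⊆ M := by
    by_contra hns
    obtain ⟨z, hz, hzM⟩ := Finset.not_subset.1 hns
    simp only [hN, hM, Finset.mem_filter, Finset.mem_univ, true_and] at hz hzM
    have hz0 : z ≠ pt 0 := fun e => A.rel_ne hz (by rw [e])
    have hbase : ∀ w : Fin 112, w ≠ pt 0 → ¬ Adj (pt 0) w →
        ∃ h ∈ stabP (pt 0), h (pt nn) = w := by
      intro w hw hwa
      obtain ⟨h, hh, hh'⟩ := exists_suborbit w hw
      have : adjB 0 w = false := by
        simpa [Adj, pt_val (show 0 < 112 by norm_num)] using hwa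
      rw [this, cond_false] at hh'
      exact ⟨h, hh, hh'⟩
    obtain ⟨h₀, hh₀, e₀⟩ := hbase z hz0 hzM
    have hbig : (Finset.univ.filter fun w => w ≠ pt 0 ∧ ¬ Adj (pt 0) w) ⊆ N := by
      intro w hw
      simp only [Finset.mem_filter, Finset.mem_univ, true_and] at hw
      obtain ⟨h, hh, e⟩ := hbase w hw.1 hw.2
      simp only [hN, Finset.mem_filter, Finset.mem_univ, true_and]
      have h1 := (hinv hh₀.1 (pt 0) (pt nn)).1 (by
        rw [show h₀ (pt 0) = pt 0 from hh₀.2, e₀]; exact hz)
      have h2 := (hinv hh.1 (pt 0) (pt nn)).2 h1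
      rwa [show h (pt 0) = pt 0 from hh.2, e] at h2
    have hcard : (Finset.univ.filter fun w => w ≠ pt 0 ∧ ¬ Adj (pt 0) w).card = 81 := by
      have e : (Finset.univ.filter fun w => w ≠ pt 0 ∧ ¬ Adj (pt 0) w) =
          Finset.univ \ insert (pt 0) M := by ext w; simp [hM]
      rw [e, Finset.card_sdiff_of_subset (Finset.subset_univ _), Finset.card_univ,
        Fintype.card_fin, Finset.card_insert_of_notMem (by
          simp only [hM, Finset.mem_filter, not_and]
          exact fun _ h => h.ne rfl), cM]
    have := Finset.card_le_card hbig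
    omega
  have heq : N = M := Finset.eq_of_subset_of_card_le hsub (by omega)
  have := Finset.ext_iff.1 heq y
  simpa [hN, hM] using this

/-- The set of neighbours of a far point is a hemisystem. -/
theorem Act.hemi (A : Act H V a b c) {ψ : Fin 112 → V} (hinj : Function.Injective ψ)
    (hrange : ∀ y, Rel H a b a y ↔ ∃ w, ψ w = y)
    (hadj : ∀ x y, Rel H a b (ψ x) (ψ y) ↔ Adj x y) {T : Fin 112 → Bool} {z₀ : V}
    (hz₀ : z₀ ≠ a ∧ ¬ Rel H a b a z₀) (hT : ∀ w, T w = true ↔ Rel H a b z₀ (ψ w)) :
    IsHemi T := by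
  classical
  intro l hl hp
  have hnd : l.Nodup := hp.imp fun h => h.ne
  set C := (Finset.univ : Finset V).filter (fun y => y ≠ a ∧ ¬ Rel H a b a y) with hC
  set s := l.toFinset
  have hs : s.card = 4 := by rw [List.toFinset_card_of_nodup hnd, hl]
  let nbC : Fin 112 → Finset V := fun x => C.filter fun z => Rel H a b (ψ x) z
  obtain ⟨nbB, mem_nbB⟩ : ∃ nbB : Fin 112 → Finset (Fin 112), ∀ x y, y ∈ nbB x ↔ Adj x y :=
    ⟨fun x => Finset.univ.filter fun y => Adj x y, fun x y => by simp⟩
  have hnbB : ∀ x, (nbB x).card = 30 := by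
    intro x
    obtain ⟨g, hg, rfl⟩ := exists_move x
    rw [← adj_ok.2, ← List.map_coe_finRange_eq_range (n := 112), List.countP_map,
      List.countP_eq_length_filter,
      ← List.toFinset_card_of_nodup ((List.nodup_finRange 112).filter _)]
    refine (Finset.card_equiv g fun y => ?_).symm
    rw [List.toFinset_filter, List.toFinset_finRange]
    simp only [mem_nbB, Finset.mem_filter, Finset.mem_univ, true_and, Function.comp_apply]
    rw [mem_Aut112.1 (P0_le_aut hg) (pt 0) y]
    simp [Adj, pt_val (show 0 < 112 by norm_num)]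
  have hlam : ∀ x y, Adj x y → (nbB x ∩ nbB y).card = 2 := by
    intro x y hxy
    have h := List.all_eq_true.1 (List.all_eq_true.1 lambda_ok.1 x (List.mem_range.2 x.2)) y
      (List.mem_range.2 y.2)
    rw [show adjB x y = true from hxy, Bool.not_true, Bool.false_or, Nat.beq_eq] at h
    rw [← h, ← List.map_coe_finRange_eq_range (n := 112), List.countP_map, List.countP_eq_length_filter,
      ← List.toFinset_card_of_nodup ((List.nodup_finRange 112).filter _)]
    congr 1
    ext z
    simp [mem_nbB, Adj]
  have hone : ∀ x, (nbC x).card = 81 := by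
    intro x
    have h := A.out_card (ψ x)
    rw [Set.ncard_eq_toFinset_card'] at h
    have hsplit : {z | Rel H a b (ψ x) z}.toFinset = insert a (nbC x ∪ (nbB x).image ψ) := by
      ext z
      simp only [Set.mem_toFinset, Set.mem_ofPred_eq, nbC, mem_nbB, hC, Finset.mem_insert,
        Finset.mem_union, Finset.mem_filter, Finset.mem_univ, true_and, Finset.mem_image]
      by_cases hza : z = a
      · simp [hza, A.rel_symm ((hrange _).2 ⟨x, rfl⟩)]
      by_cases hzB : Rel H a b a z
      · obtain ⟨w, rfl⟩ := (hrange _).1 hzB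
        simp [hza, hzB, hadj, hinj.eq_iff]
      · constructor
        · exact fun h => .inr (.inl ⟨⟨hza, hzB⟩, h⟩)
        · rintro (h | ⟨-, h⟩ | ⟨w, -, rfl⟩)
          exacts [absurd h hza, h, absurd ((hrange _).2 ⟨w, rfl⟩) hzB]
    rw [hsplit, Finset.card_insert_of_notMem ?_, Finset.card_union_of_disjoint ?_,
      Finset.card_image_of_injective _ hinj, hnbB] at h
    · omega
    · rw [Finset.disjoint_left]
      intro z hz hz'
      simp only [nbC, hC, Finset.mem_filter, Finset.mem_image] at hz hz'
      obtain ⟨w, -, rfl⟩ := hz'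
      exact hz.1.2.2 ((hrange _).2 ⟨w, rfl⟩)
    · simp only [nbC, hC, Finset.mem_union, Finset.mem_filter, Finset.mem_image]
      rintro (⟨⟨-, h, -⟩, -⟩ | ⟨w, -, h⟩)
      exacts [h rfl, A.rel_ne ((hrange _).2 ⟨w, rfl⟩) h.symm]
  have htwo : ∀ x y, Adj x y → (nbC x ∩ nbC y).card = 27 := by
    intro x y hxy
    have h := A.com_adj ((hadj x y).2 hxy)
    rw [A.params.1, Set.ncard_eq_toFinset_card'] at h
    have hsplit : (com H a b (ψ x) (ψ y)).toFinset =
        insert a ((nbC x ∩ nbC y) ∪ (nbB x ∩ nbB y).image ψ) := by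
      ext z
      rw [Set.mem_toFinset]
      simp only [com, Set.mem_ofPred_eq, nbC, mem_nbB, hC, Finset.mem_insert,
        Finset.mem_union, Finset.mem_inter, Finset.mem_filter, Finset.mem_univ, true_and,
        Finset.mem_image]
      by_cases hza : z = a
      · simp [hza, A.rel_symm ((hrange _).2 ⟨x, rfl⟩), A.rel_symm ((hrange _).2 ⟨y, rfl⟩)]
      by_cases hzB : Rel H a b a z
      · obtain ⟨w, rfl⟩ := (hrange _).1 hzB
        simp [hza, hzB, hadj, hinj.eq_iff]
      · constructor
        · exact fun h => .inr (.inl ⟨⟨⟨hza, hzB⟩, h.1⟩, ⟨hza, hzB⟩, h.2⟩)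
        · rintro (h | ⟨⟨-, h1⟩, -, h2⟩ | ⟨w, -, rfl⟩)
          exacts [absurd h hza, ⟨h1, h2⟩, absurd ((hrange _).2 ⟨w, rfl⟩) hzB]
    rw [hsplit, Finset.card_insert_of_notMem ?_, Finset.card_union_of_disjoint ?_,
      Finset.card_image_of_injective _ hinj, hlam x y hxy] at h
    · omega
    · rw [Finset.disjoint_left]
      intro z hz hz'
      simp only [nbC, hC, Finset.mem_inter, Finset.mem_filter, Finset.mem_image] at hz hz'
      obtain ⟨w, -, rfl⟩ := hz'
      exact hz.1.1.2.2 ((hrange _).2 ⟨w, rfl⟩)
    · simp only [nbC, hC, Finset.mem_union, Finset.mem_inter, Finset.mem_filter, Finset.mem_image]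
      rintro (⟨⟨⟨-, h, -⟩, -⟩, -⟩ | ⟨w, -, h⟩)
      exacts [h rfl, A.rel_ne ((hrange _).2 ⟨w, rfl⟩) h.symm]
  have cC : C.card = 162 := by
    have h := A.out_card a
    rw [Set.ncard_eq_toFinset_card'] at h
    have h1 : C = Finset.univ \ (insert a {y | Rel H a b a y}.toFinset) := by
      ext y; simp [hC]
    rw [h1, Finset.card_sdiff_of_subset (Finset.subset_univ _), Finset.card_univ,
      ← Nat.card_eq_fintype_card, A.card, Finset.card_insert_of_notMem (by
        simp only [Set.mem_toFinset, Set.mem_ofPred_eq]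
        exact fun h => A.rel_ne h rfl), h]
  let f : V → ℤ := fun z => ∑ x ∈ s, if Rel H a b (ψ x) z then 1 else 0
  have hind : ∀ (P : V → Prop) [DecidablePred P],
      (∑ z ∈ C, if P z then (1 : ℤ) else 0) = ((C.filter P).card : ℤ) := by
    intro P _
    rw [Finset.sum_boole]
  have sum1 : ∑ z ∈ C, f z = 324 := by
    simp only [f]
    rw [Finset.sum_comm, Finset.sum_congr rfl (g := fun _ => (81 : ℤ)) fun x _ => by
      rw [hind]; exact_mod_cast hone x]
    rw [Finset.sum_const, hs]
    norm_num
  have sum2 : ∑ z ∈ C, f z * f z = 648 := by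
    simp only [f, Finset.sum_mul_sum]
    rw [Finset.sum_comm]
    rw [Finset.sum_congr rfl (g := fun _ => (162 : ℤ)) fun x hx => ?_, Finset.sum_const, hs]
    · norm_num
    · rw [Finset.sum_comm]
      have hx' : x ∈ l := List.mem_toFinset.1 hx
      have hself : (∑ z ∈ C, (if Rel H a b (ψ x) z then (1 : ℤ) else 0) *
          (if Rel H a b (ψ x) z then 1 else 0)) = 81 := by
        rw [Finset.sum_congr rfl (g := fun z => if Rel H a b (ψ x) z then (1 : ℤ) else 0)
          fun z _ => by split <;> simp, hind]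
        exact_mod_cast hone x
      have hoff : ∀ y ∈ s.erase x, (∑ z ∈ C, (if Rel H a b (ψ x) z then (1 : ℤ) else 0) *
          (if Rel H a b (ψ y) z then 1 else 0)) = 27 := by
        intro y hy
        obtain ⟨hne, hy⟩ := Finset.mem_erase.1 hy
        have hxy : Adj x y := hp.forall hx' (List.mem_toFinset.1 hy) (Ne.symm hne)
        rw [Finset.sum_congr rfl
          (g := fun z => if (Rel H a b (ψ x) z ∧ Rel H a b (ψ y) z) then (1 : ℤ) else 0)
          fun z _ => by split_ifs <;> simp_all, hind]
        have e := htwo x y hxy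
        simp only [nbC, ← Finset.filter_and] at e
        exact_mod_cast e
      refine (Finset.add_sum_erase s _ hx).symm.trans ?_
      rw [hself, Finset.sum_congr rfl hoff, Finset.sum_const, Finset.card_erase_of_mem hx, hs]
      norm_num
  have hzero : ∑ z ∈ C, (f z - 2) * (f z - 2) = 0 := by
    have : ∀ z, (f z - 2) * (f z - 2) = f z * f z - 4 * f z + 4 := fun z => by ring
    simp only [this, Finset.sum_add_distrib, Finset.sum_sub_distrib, ← Finset.mul_sum, sum1, sum2,
      Finset.sum_const, cC]
    norm_num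
  have hall := (Finset.sum_eq_zero_iff_of_nonneg fun z _ => mul_self_nonneg (f z - 2)).1 hzero z₀
    (by simp [hC, hz₀.1, hz₀.2])
  have h2 : f z₀ = 2 := by
    rcases mul_eq_zero.1 hall with h | h <;> omega
  have : (l.countP T : ℤ) = f z₀ := by
    have e : l.countP T = (s.filter fun x => Rel H a b (ψ x) z₀).card := by
      rw [List.countP_eq_length_filter, ← List.toFinset_card_of_nodup (hnd.filter _)]
      congr 1
      ext x
      simp [s, hT, A.rel_comm (x := z₀)]
    rw [e]
    simp [f, Finset.sum_boole]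
  omega

end Cfsg.Agent.McLRank
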