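import Cfsg.Agent.McLRank.Model
import Cfsg.Agent.Leech.Orbit275
import Cfsg.Agent.Leech.SimpleMcL

/-!
The McLaughlin group on its 275 lattice vectors as an instance of the rank three action.
-/

set_option autoImplicit false

namespace Cfsg.Agent.McLRank

open Cfsg Cfsg.Agent.Leech MulAction

set_option synthInstance.maxHeartbeats 400000
set_option maxHeartbeats 1000000

attribute [local irreducible] set275

/-- The 275 vectors, as a set with an action. -/
noncomputable def pts275 : SubMulAction mcl leechLattice where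
  carrier := set275 pV pU
  smul_mem' g _ hx := set275_inv (mem_mcl.mp g.2).1 (mem_mcl.mp g.2).2 hx

/-- The base point. -/
noncomputable def base275 : pts275 := ⟨pS, pS_mem⟩

theorem card_pts275 : Nat.card pts275 = 275 := by
  show Nat.card (set275 pV pU : Set leechLattice) = 275
  rw [Nat.card_coe_set_eq, count275]

theorem self_pS : dotInt pS.1 pS.1 = 32 := by
  have h := sqNorm_configs.2.2.2.2.2.2.2
  simpa [sqNorm, dotInt, pow_two] using h

theorem pts275_cases (x : pts275) (hx : x ≠ base275) :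
    ∃ b : Bool, dotInt pS.1 x.1.1 = cond b 16 8 :=
  (suborbits275.2 x.1 x.2).resolve_left fun h => hx (Subtype.ext h)

theorem exists_act275 :
    ∃ b c : pts275, Act mcl pts275 base275 b c := by
  have hv : sqNorm pV.1 = 48 := sqNorm_configs.2.1
  have hu : sqNorm pU.1 = 32 := sqNorm_configs.1
  have hd : dotInt pV.1 pU.1 = 24 := dot_configs.1
  have key : ∀ t : Bool, ∃ z : pts275,
      (orbit (stabilizer mcl base275) z).ncard = cond t 162 112 := by
    intro t
    have hn := ncard_suborbit275 hv hu hd pS_mem t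
    obtain ⟨y, hy, hyd⟩ := Set.nonempty_of_ncard_ne_zero
      (by rw [hn]; cases t <;> norm_num : (dotClass (set275 pV pU) pS (cond t 16 8)).ncard ≠ 0)
    have hyne : y ≠ pS := by
      rintro rfl
      rw [self_pS] at hyd
      cases t <;> simp at hyd
    refine ⟨⟨y, hy⟩, ?_⟩
    rw [← Set.ncard_image_of_injective _ Subtype.val_injective, ← hn]
    congr 1
    ext x
    constructor
    · rintro ⟨v, ⟨g, rfl⟩, rfl⟩
      have hgS : (g.1.1 : Co0) • pS = pS := congrArg Subtype.val g.2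
      refine ⟨(g • (⟨y, hy⟩ : pts275)).2, ?_⟩
      show dotInt pS.1 ((g.1.1 : Co0) • y).1 = _
      have h := co0_dotInt g.1.1 pS y
      rw [hgS] at h
      rw [h, hyd]
    · rintro ⟨hx, hxd⟩
      obtain ⟨k, k1, k2, k3, k4⟩ := transitive_suborbit275 hv hu hd pS_mem hy hx hyne
        (hyd.trans hxd.symm)
      exact ⟨_, ⟨⟨⟨k, mem_mcl.mpr ⟨k1, k2⟩⟩, Subtype.ext k3⟩, rfl⟩, k4⟩
  obtain ⟨b, hb⟩ := key false
  obtain ⟨c, hc⟩ := key true
  refine ⟨b, c, card_pts275, fun x => ?_, hb, hc⟩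
  obtain ⟨g, g1, g2, g3⟩ := transitive275 x.2
  exact ⟨⟨g, mem_mcl.mpr ⟨g1, g2⟩⟩, Subtype.ext g3⟩

theorem faithful275 : FaithfulSMul mcl pts275 := by
  haveI := isSimpleGroup_mcl
  rcases (IsSimpleGroup.eq_bot_or_eq_top_of_normal (MulAction.toPermHom mcl pts275).ker
    inferInstance) with h | h
  · exact ⟨fun {g g'} e => (MonoidHom.ker_eq_bot_iff _).mp h (Equiv.ext e)⟩
  · exfalso
    obtain ⟨b, c, A⟩ := exists_act275
    have hb : ∀ g : mcl, g • b = b := fun g =>
      Equiv.Perm.ext_iff.mp (show MulAction.toPermHom mcl pts275 g = 1 from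
        MonoidHom.mem_ker.mp (h ▸ Subgroup.mem_top g)) b
    have h112 := A.cardB
    rw [show orbit (stabilizer mcl base275) b = {b} from
      Set.eq_singleton_iff_unique_mem.mpr ⟨mem_orbit_self b,
        fun x ⟨g, hg⟩ => hg ▸ hb g.1⟩, Set.ncard_singleton] at h112
    omega

theorem stab275_iso (F : Type) [Field F] [Fintype F] (hF : Fintype.card F = 9) :
    Nonempty (↥(stabilizer mcl base275) ≃* Cfsg.PSU 4 F 3) := by
  have e : stabilizer mcl base275 = stabilizer mcl pS := by
    ext g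
    exact ⟨fun h => congrArg Subtype.val h, fun h => Subtype.ext h⟩
  have hsub : sqNorm ((pV - pU : leechLattice) : GolayPt → ℤ) = 32 := by
    rw [← pW_eq]; exact sqNorm_configs.2.2.1
  have hx : pS ∈ LeechMcL.pts pV pU := by
    refine ⟨sqNorm_configs.2.2.2.2.2.2.2, ?_, dot_configs.2.2.2.2.1⟩
    rw [LeechMcL.sqNorm_sub', sqNorm_configs.2.1, sqNorm_configs.2.2.2.2.2.2.2,
      dot_configs.2.2.2.1]
    norm_num
  obtain ⟨i⟩ := McLUnitary.nonempty_iso_general (u := pV) (v := pU) (x := pS) sqNorm_configs.2.1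
    ⟨sqNorm_configs.1, hsub⟩ hx F hF
  exact ⟨((MulEquiv.subgroupCongr e).trans (stabEquiv mcl pS)).trans i⟩

theorem mem_spor_mcl275 {g : Equiv.Perm leechLattice} (hg : g ∈ Co0) :
    g ∈ Spor.McL ↔ (⟨g, hg⟩ : Co0) ∈ mcl := by
  have e1 : Spor.leechV = -pV := by rw [pV_eq, neg_neg]
  simp only [Spor.McL, Spor.Co3, Subgroup.mem_inf, MulAction.mem_stabilizer_iff, e1, mem_mcl,
    ← pU_eq]
  show (g ∈ Co0 ∧ (⟨g, hg⟩ : Co0) • (-pV) = -pV) ∧ (⟨g, hg⟩ : Co0) • pU = pU ↔ _
  rw [co0_neg, neg_inj]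
  simp [hg]

/-- The stabiliser in the automorphism group of the lattice is the group of the prelude. -/
def sporEquiv275 : mcl ≃* Spor.McL where
  toFun g := ⟨g.1.1, (mem_spor_mcl275 g.1.2).mpr g.2⟩
  invFun g := ⟨⟨g.1, g.2.1.1⟩, (mem_spor_mcl275 g.2.1.1).mp g.2⟩
  left_inv _ := rfl
  right_inv _ := rfl
  map_mul' _ _ := rfl

/-- A rank three group of degree 275 with stabiliser `PSU 4 3` is the McLaughlin group. -/
theorem isoMcL {H V : Type*} [Group H] [MulAction H V] [FaithfulSMul H V] [Fintype V]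
    [DecidableEq V] {a b c : V} (A : Act H V a b c) (K : Type) [Field K] [Fintype K]
    (hK : Fintype.card K = 9) (e : ↥(stabilizer H a) ≃* Cfsg.PSU 4 K 3) : Spor.IsoMcL H := by
  classical
  haveI := faithful275
  haveI : Finite pts275 := Nat.finite_of_card_ne_zero (by rw [card_pts275]; norm_num)
  haveI : Fintype pts275 := Fintype.ofFinite _
  obtain ⟨b', c', A'⟩ := exists_act275
  obtain ⟨i⟩ := exists_iso K hK
  obtain ⟨j⟩ := stab275_iso K hK
  obtain ⟨k⟩ := A.iso (e.trans i.symm) A' (j.trans i.symm)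
  exact ⟨k.trans sporEquiv275⟩

end Cfsg.Agent.McLRank
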