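import Cfsg.Agent.McLRank.Label

/-!
A rank three action of degree 275 with the group on 112 points as point stabiliser is the action
of one definite group of permutations of the points of the model.
-/

set_option autoImplicit false

namespace Cfsg.Agent.McLRank

open MulAction

/-- A group of automorphisms of the model with the right stabiliser. -/
structure Good (K : Subgroup (Equiv.Perm Pt)) : Prop where
  adj : ∀ g ∈ K, ∀ x y, AdjPt (g x) (g y) ↔ AdjPt x y
  trans : ∀ x, ∃ g ∈ K, g none = x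
  stab_le : ∀ g ∈ K, g none = none → ∃ p ∈ P0, ∀ w, g (ptB w) = ptB (p w)
  stab_ge : ∀ p ∈ P0, ∃ g ∈ K, g none = none ∧ ∀ w, g (ptB w) = ptB (p w)

/-- The automorphisms of the model. -/
def AutPt : Subgroup (Equiv.Perm Pt) where
  carrier := {g | ∀ x y, AdjPt (g x) (g y) ↔ AdjPt x y}
  one_mem' _ _ := Iff.rfl
  mul_mem' ha hb x y := (ha _ _).trans (hb x y)
  inv_mem' {g} hg x y := by
    rw [← hg]
    simp [Equiv.Perm.inv_def]

theorem adjPt_none_iff {x : Pt} : AdjPt none x ↔ ∃ w, x = ptB w := by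
  rcases x with _ | (w | j) <;> simp [AdjPt, ptB]

theorem AdjPt.symm' {x y : Pt} (h : AdjPt x y) : AdjPt y x := by
  rcases x with _ | (u | i) <;> rcases y with _ | (v | j) <;>
    simp only [AdjPt] at h ⊢
  exacts [h.symm, h, h, ⟨h.1.symm, by rw [inter_comm]; exact h.2⟩]

/-- An automorphism fixing the base point acts on its neighbours. -/
theorem exists_induced {t : Equiv.Perm Pt} (ht : t ∈ AutPt) (h0 : t none = none) :
    ∃ τ ∈ Aut112, ∀ w, t (ptB w) = ptB (τ w) := by
  have hex : ∀ w, ∃ w', t (ptB w) = ptB w' := by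
    intro w
    have h := (ht none (ptB w)).2 trivial
    rw [h0] at h
    exact adjPt_none_iff.1 h
  choose f hf using hex
  have hinj : Function.Injective f := fun u v h => by
    have := t.injective ((hf u).trans ((congrArg ptB h).trans (hf v).symm))
    simpa [ptB] using this
  refine ⟨Equiv.ofBijective f ⟨hinj, Finite.surjective_of_injective hinj⟩, fun u v => ?_, hf⟩
  show AdjPt (ptB (f u)) (ptB (f v)) ↔ AdjPt (ptB u) (ptB v)
  rw [← hf, ← hf]
  exact ht _ _

/-- A far point is the family member given by its neighbours. -/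
theorem map_ptC {t : Equiv.Perm Pt} (ht : t ∈ AutPt) (h0 : t none = none)
    {τ : Equiv.Perm (Fin 112)} (hτ : ∀ w, t (ptB w) = ptB (τ w)) {i j : Fin 162}
    (hij : ∀ w, famB i (τ w) = famB j w) : t (ptC j) = ptC i := by
  rcases hx : t (ptC j) with _ | (u | k)
  · exact absurd (t.injective (hx.trans h0.symm)) (by simp [ptC])
  · have h := ht none (ptC j)
    rw [h0, hx] at h
    exact (h.1 trivial).elim
  · refine congrArg ptC (famB_injective (funext fun w => ?_))
    obtain ⟨v, rfl⟩ := τ.surjective w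
    have h := ht (ptC j) (ptB v)
    rw [hx, hτ] at h
    rw [hij]
    exact Bool.eq_iff_iff.2 h

theorem ext_stab {s t : Equiv.Perm Pt} (hs : s ∈ AutPt) (ht : t ∈ AutPt) (hs0 : s none = none)
    (ht0 : t none = none) (h : ∀ w, s (ptB w) = t (ptB w)) : s = t := by
  obtain ⟨τ, -, hτ⟩ := exists_induced ht ht0
  refine Equiv.ext fun x => ?_
  rcases x with _ | (w | j)
  · rw [hs0, ht0]
  · exact h w
  · rcases hx : t (ptC j) with _ | (u | k)
    · exact absurd (t.injective (hx.trans ht0.symm)) (by simp [ptC])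
    · have h' := ht none (ptC j)
      rw [ht0, hx] at h'
      exact (h'.1 trivial).elim
    · have hij : ∀ w, famB k (τ w) = famB j w := fun w => by
        have h' := ht (ptC j) (ptB w)
        rw [hx, hτ] at h'
        exact Bool.eq_iff_iff.2 h'
      exact map_ptC hs hs0 (fun w => (h w).trans (hτ w)) hij

theorem Good.le_aut {K : Subgroup (Equiv.Perm Pt)} (hK : Good K) : K ≤ AutPt := hK.adj

/-- Two groups with the right stabiliser are equal. -/
theorem Good.le {K K' : Subgroup (Equiv.Perm Pt)} (hK : Good K) (hK' : Good K') : K ≤ K' := by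
  haveI := isSimpleGroup_P0
  have hconj : ∀ σ ∈ K, ∀ g ∈ K, g none = none → σ * g * σ⁻¹ ∈ K ⊓ K' := by
    intro σ hσ g hg hg0
    refine Subgroup.mem_inf.2 ⟨mul_mem (mul_mem hσ hg) (inv_mem hσ), ?_⟩
    obtain ⟨p, hp, hgp⟩ := hK.stab_le g hg hg0
    obtain ⟨m, hm, hm0⟩ := hK'.trans (σ none)
    set t := m⁻¹ * σ with ht
    have htA : t ∈ AutPt := mul_mem (inv_mem (hK'.le_aut hm)) (hK.le_aut hσ)
    have ht0 : t none = none := by
      rw [ht, Equiv.Perm.mul_apply, ← hm0, Equiv.Perm.inv_def, Equiv.symm_apply_apply]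
    obtain ⟨τ, hτA, hτ⟩ := exists_induced htA ht0
    have hmap : P0.map (MulAut.conj τ).toMonoidHom = P0 :=
      eq_P0 card_P0 (by
        rintro _ ⟨a, ha, rfl⟩
        exact mul_mem (mul_mem hτA (P0_le_aut ha)) (inv_mem hτA))
        (P0.equivMapOfInjective _ (MulAut.conj τ).injective)
    have hp' : τ * p * τ⁻¹ ∈ P0 := by
      rw [← hmap]
      exact ⟨p, hp, by simp⟩
    obtain ⟨g', hg', hg'0, hg'p⟩ := hK'.stab_ge _ hp'
    have he : g' * t = t * g := by
      refine ext_stab (mul_mem (hK'.le_aut hg') htA) (mul_mem htA (hK.le_aut hg))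
        (by rw [Equiv.Perm.mul_apply, ht0, hg'0]) (by rw [Equiv.Perm.mul_apply, hg0, ht0])
        fun w => ?_
      show g' (t (ptB w)) = t (g (ptB w))
      rw [hτ, hg'p, hgp, hτ]
      simp
    have : σ * g * σ⁻¹ = m * g' * m⁻¹ := by
      rw [eq_mul_inv_of_mul_eq he, ht]
      group
    rw [this]
    exact mul_mem (mul_mem hm hg') (inv_mem hm)
  have hstab : ∀ g ∈ K, g none = none → g ∈ K ⊓ K' := fun g hg hg0 => by
    simpa using hconj 1 (one_mem K) g hg hg0
  have hnb : ∀ x z : Pt, AdjPt x none → AdjPt x z → ∃ m ∈ K ⊓ K', m none = z := by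
    intro x z hx hz
    obtain ⟨σ, hσ, rfl⟩ := hK.trans x
    have hpre : ∀ y, AdjPt (σ none) y → ∃ w, σ (ptB w) = y := fun y hy => by
      obtain ⟨y, rfl⟩ := σ.surjective y
      obtain ⟨w, rfl⟩ := adjPt_none_iff.1 ((hK.adj σ hσ none y).1 hy)
      exact ⟨w, rfl⟩
    obtain ⟨w₁, h₁⟩ := hpre _ hx
    obtain ⟨w₂, h₂⟩ := hpre _ hz
    obtain ⟨g₁, hg₁, e₁⟩ := exists_move w₁
    obtain ⟨g₂, hg₂, e₂⟩ := exists_move w₂
    obtain ⟨g, hg, hg0, hgw⟩ := hK.stab_ge _ (mul_mem hg₂ (inv_mem hg₁))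
    refine ⟨σ * g * σ⁻¹, hconj σ hσ g hg hg0, ?_⟩
    rw [← h₁, Equiv.Perm.mul_apply, Equiv.Perm.mul_apply, Equiv.Perm.inv_def,
      Equiv.symm_apply_apply, hgw, ← e₁, Equiv.Perm.mul_apply, Equiv.Perm.inv_def,
      Equiv.symm_apply_apply, e₂, h₂]
  have hB : ∀ w, ∃ m ∈ K ⊓ K', m none = ptB w := by
    intro w
    obtain ⟨v, hv⟩ : ∃ v, Adj (pt 0) v := ⟨pt nb, by
      obtain ⟨-, hnb, -, hlt, -⟩ := sub_ok
      simp [Adj, pt_val hlt, pt_val (show 0 < 112 by norm_num), hnb]⟩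
    obtain ⟨m, hm, hm0⟩ := hnb (ptB (pt 0)) (ptB v) trivial hv
    obtain ⟨g₁, hg₁, e₁⟩ := exists_move v
    obtain ⟨g₂, hg₂, e₂⟩ := exists_move w
    obtain ⟨g, hg, hg0, hgw⟩ := hK.stab_ge _ (mul_mem hg₂ (inv_mem hg₁))
    refine ⟨g * m, mul_mem (hstab g hg hg0) hm, ?_⟩
    rw [Equiv.Perm.mul_apply, hm0, hgw, ← e₁, Equiv.Perm.mul_apply, Equiv.Perm.inv_def,
      Equiv.symm_apply_apply, e₂]
  have hC : ∀ i, ∃ m ∈ K ⊓ K', m none = ptC i := by
    intro i
    obtain ⟨x₀, hx₀⟩ := Finset.card_pos.1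
      (show 0 < (Finset.univ.filter fun x : Fin 112 => famB 0 x = true).card by
        rw [famB_zero_card]; norm_num)
    obtain ⟨m, hm, hm0⟩ := hnb (ptB x₀) (ptC 0) trivial (Finset.mem_filter.1 hx₀).2
    obtain ⟨p, hp, hpi⟩ := famB_trans i
    obtain ⟨g, hg, hg0, hgw⟩ := hK.stab_ge p hp
    refine ⟨g * m, mul_mem (hstab g hg hg0) hm, ?_⟩
    rw [Equiv.Perm.mul_apply, hm0]
    exact map_ptC (hK.le_aut hg) hg0 hgw hpi
  intro σ hσ
  obtain ⟨m, hm, hm0⟩ : ∃ m ∈ K ⊓ K', m none = σ none := by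
    rcases σ none with _ | (w | i)
    exacts [⟨1, one_mem _, rfl⟩, hB w, hC i]
  have h : m⁻¹ * σ ∈ K ⊓ K' := hstab _ (mul_mem (inv_mem hm.1) hσ)
    (by rw [Equiv.Perm.mul_apply, ← hm0, Equiv.Perm.inv_def, Equiv.symm_apply_apply])
  simpa using mul_mem hm.2 h.2

theorem Good.eq {K K' : Subgroup (Equiv.Perm Pt)} (hK : Good K) (hK' : Good K') : K = K' :=
  le_antisymm (hK.le hK') (hK'.le hK)

variable {H V : Type*} [Group H] [MulAction H V] [Fintype V] [DecidableEq V] {a b c : V}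

/-- The points far from the base point are labelled by the family. -/
theorem Act.exists_far (A : Act H V a b c) {θ : ↥(stabilizer H a) →* Equiv.Perm (Fin 112)}
    (hθ : θ.range = P0) {ψ : Fin 112 → V}
    (hequiv : ∀ (h : ↥(stabilizer H a)) (w : Fin 112), (h : H) • ψ w = ψ (θ h w))
    {j₀ : Fin 162} (hj₀ : ∀ w, Rel H a b c (ψ w) ↔ famB j₀ w = true) :
    ∃ χ : Fin 162 → V, Function.Injective χ ∧
      (∀ y, y ∈ orbit (stabilizer H a) c → ∃ i, χ i = y) ∧
      (∀ i, χ i ∈ orbit (stabilizer H a) c) ∧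
      ∀ i w, Rel H a b (χ i) (ψ w) ↔ famB i w = true := by
  classical
  have hmove : ∀ (s : ↥(stabilizer H a)) {i k : Fin 162}, (∀ w, famB i (θ s w) = famB k w) →
      ∀ {y : V}, (∀ w, Rel H a b y (ψ w) ↔ famB k w = true) →
      ∀ w, Rel H a b ((s : H) • y) (ψ w) ↔ famB i w = true := by
    intro s i k hik y hy w
    obtain ⟨v, rfl⟩ := (θ s).surjective w
    rw [← hequiv, rel_smul, hy, hik]
  have hidx : ∀ y : ↥(orbit (stabilizer H a) c), ∃ i, ∀ w,
      Rel H a b (y : V) (ψ w) ↔ famB i w = true := by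
    rintro ⟨_, s, rfl⟩
    obtain ⟨i, hi⟩ := famB_move (hθ ▸ ⟨s, rfl⟩ : θ s ∈ P0) j₀
    exact ⟨i, hmove s hi hj₀⟩
  choose idx hidx' using hidx
  have hsurj : Function.Surjective idx := by
    intro i
    obtain ⟨g₁, hg₁, e₁⟩ := famB_trans i
    obtain ⟨g₂, hg₂, e₂⟩ := famB_trans j₀
    obtain ⟨s, hs⟩ : g₁ * g₂⁻¹ ∈ θ.range := hθ ▸ mul_mem hg₁ (inv_mem hg₂)
    refine ⟨⟨(s : H) • c, s, rfl⟩, famB_injective (funext fun w => Bool.eq_iff_iff.2 ?_)⟩
    rw [← hidx']
    refine hmove s (fun w => ?_) hj₀ w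
    obtain ⟨v, rfl⟩ := g₂.surjective w
    rw [hs, Equiv.Perm.mul_apply, Equiv.Perm.inv_def, Equiv.symm_apply_apply, e₁, e₂]
  have hcard : Nat.card ↥(orbit (stabilizer H a) c) = Nat.card (Fin 162) := by
    rw [Nat.card_coe_set_eq, A.cardC, Nat.card_eq_fintype_card, Fintype.card_fin]
  have hbij : Function.Bijective idx := (Nat.bijective_iff_surjective_and_card idx).2 ⟨hsurj, hcard⟩
  set E := Equiv.ofBijective idx hbij
  refine ⟨fun i => (E.symm i : V), fun i j h => E.symm.injective (Subtype.ext h),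
    fun y hy => ⟨idx ⟨y, hy⟩, ?_⟩, fun i => (E.symm i).2, fun i w => ?_⟩
  · show ((E.symm (E ⟨y, hy⟩) : ↥(orbit (stabilizer H a) c)) : V) = y
    rw [Equiv.symm_apply_apply]
  · have h := hidx' (E.symm i) w
    rwa [show idx (E.symm i) = i from E.apply_symm_apply i] at h

/-- Two far points are adjacent as the family says. -/
theorem Act.far_adj (A : Act H V a b c) {ψ : Fin 112 → V} (hinj : Function.Injective ψ)
    (hrange : ∀ y, Rel H a b a y ↔ ∃ w, ψ w = y) {χ : Fin 162 → V} (hχ : Function.Injective χ)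
    (hall : ∀ y, y ∈ orbit (stabilizer H a) c → ∃ i, χ i = y)
    (hfar : ∀ i, χ i ∈ orbit (stabilizer H a) c)
    (hrel : ∀ i w, Rel H a b (χ i) (ψ w) ↔ famB i w = true) (i j : Fin 162) :
    Rel H a b (χ i) (χ j) ↔ i ≠ j ∧ inter i j = 20 := by
  classical
  obtain ⟨hi1, hi2⟩ := inter_spec i
  have hle : ∀ k, Rel H a b (χ i) (χ k) → inter i k ≤ 30 := by
    intro k hk
    rw [← A.params.1, ← A.com_adj hk, inter, ← Finset.card_image_of_injective _ hinj,
      ← Set.ncard_coe_finset]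
    refine Set.ncard_le_ncard ?_
    intro z hz
    simp only [Finset.coe_image, Set.mem_image, Finset.coe_filter, Finset.mem_univ, true_and,
      Set.mem_ofPred_eq] at hz
    obtain ⟨w, hw, rfl⟩ := hz
    exact ⟨(hrel i w).2 hw.1, (hrel k w).2 hw.2⟩
  set S := Finset.univ.filter fun k => Rel H a b (χ i) (χ k) with hS
  have hsub : S ⊆ Finset.univ.filter fun k => k ≠ i ∧ inter i k = 20 := by
    intro k hk
    simp only [hS, Finset.mem_filter, Finset.mem_univ, true_and] at hk ⊢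
    have hne : k ≠ i := fun e => A.rel_ne hk (by rw [e])
    refine ⟨hne, (hi1 k hne).resolve_right fun h => ?_⟩
    have := hle k hk
    omega
  have hnota : ∀ k, ¬ Rel H a b (χ k) a := fun k h =>
    Set.disjoint_left.1 A.disjoint.2.2 (rel_base_iff.1 (A.rel_symm h)) (hfar k)
  have hcardS : S.card = 56 := by
    set T := Finset.univ.filter fun w : Fin 112 => famB i w = true with hT
    have hTc : T.card = 56 := famB_zero_card i
    have h := A.out_card (χ i)
    have e : {y | Rel H a b (χ i) y} =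
        ((T.image ψ ∪ S.image χ : Finset V) : Set V) := by
      ext y
      simp only [Set.mem_ofPred_eq, Finset.coe_union, Finset.coe_image, Set.mem_union,
        Set.mem_image, hT, hS, Finset.coe_filter, Finset.mem_univ, true_and]
      constructor
      · intro hy
        rcases A.cases y with rfl | hy' | hy'
        · exact absurd hy (hnota i)
        · obtain ⟨w, rfl⟩ := (hrange _).1 (rel_base_iff.2 hy')
          exact .inl ⟨w, (hrel i w).1 hy, rfl⟩
        · obtain ⟨k, rfl⟩ := hall y hy'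
          exact .inr ⟨k, hy, rfl⟩
      · rintro (⟨w, hw, rfl⟩ | ⟨k, hk, rfl⟩)
        exacts [(hrel i w).2 hw, hk]
    rw [e, Set.ncard_coe_finset, Finset.card_union_of_disjoint ?_,
      Finset.card_image_of_injective _ hinj, Finset.card_image_of_injective _ hχ, hTc] at h
    · omega
    · rw [Finset.disjoint_left]
      intro y hy hy'
      simp only [Finset.mem_image] at hy hy'
      obtain ⟨w, -, rfl⟩ := hy
      obtain ⟨k, -, hk⟩ := hy'
      exact Set.disjoint_left.1 A.disjoint.2.2 (rel_base_iff.1 ((hrange _).2 ⟨w, rfl⟩)) (hk ▸ hfar k)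
  have heq := Finset.ext_iff.1
    (Finset.eq_of_subset_of_card_le hsub (by rw [hi2, hcardS])) j
  simp only [hS, Finset.mem_filter, Finset.mem_univ, true_and] at heq
  rw [heq]
  exact ⟨fun h => ⟨h.1.symm, h.2⟩, fun h => ⟨h.1.symm, h.2⟩⟩

/-- A rank three action of degree 275 gives a group with the right stabiliser. -/
theorem Act.exists_good (A : Act H V a b c) [FaithfulSMul H V]
    (e : ↥(stabilizer H a) ≃* ↥P0) :
    ∃ φ : H →* Equiv.Perm Pt, Function.Injective φ ∧ Good φ.range := by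
  classical
  obtain ⟨ψ₀, hinj₀, hrange₀, hequiv₀⟩ := A.exists_label e
  set θ₀ : ↥(stabilizer H a) →* Equiv.Perm (Fin 112) := P0.subtype.comp e.toMonoidHom with hθ₀
  have hθ₀r : θ₀.range = P0 := by
    ext g
    constructor
    · rintro ⟨s, rfl⟩
      exact (e s).2
    · exact fun hg => ⟨e.symm ⟨g, hg⟩, by simp [hθ₀]⟩
  have hadj₀ := A.label_adj hθ₀r hinj₀ hrange₀ hequiv₀
  have hc : c ≠ a ∧ ¬ Rel H a b a c := by
    obtain ⟨-, h2, h3⟩ := A.disjoint
    exact ⟨fun h => h2 (h ▸ mem_orbit_self c),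
      fun h => Set.disjoint_left.1 h3 (rel_base_iff.1 h) (mem_orbit_self c)⟩
  set T : Fin 112 → Bool := fun w => decide (Rel H a b c (ψ₀ w)) with hT
  have hTi : ∀ w, T w = true ↔ Rel H a b c (ψ₀ w) := fun w => by simp [hT]
  have hne : ∃ w, T w = true := by
    have h := A.params.2
    obtain ⟨z, hz⟩ := Set.nonempty_of_ncard_ne_zero (s := com H a b a c) (by omega)
    obtain ⟨w, rfl⟩ := (hrange₀ z).1 hz.1
    exact ⟨w, (hTi w).2 hz.2⟩
  obtain ⟨p, j₀, hpj⟩ := exists_family (A.hemi hinj₀ hrange₀ hadj₀ hc hTi) hne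
  set π := outEl p
  set ψ : Fin 112 → V := fun w => ψ₀ (π w) with hψ
  set θ : ↥(stabilizer H a) →* Equiv.Perm (Fin 112) :=
    (MulAut.conj π⁻¹).toMonoidHom.comp θ₀ with hθ
  have hinj : Function.Injective ψ := hinj₀.comp π.injective
  have hrange : ∀ y, Rel H a b a y ↔ ∃ w, ψ w = y := fun y => by
    rw [hrange₀]
    exact ⟨fun ⟨w, hw⟩ => ⟨π⁻¹ w, by simp [hψ, hw]⟩, fun ⟨w, hw⟩ => ⟨π w, hw⟩⟩
  have hequiv : ∀ (h : ↥(stabilizer H a)) (w : Fin 112), (h : H) • ψ w = ψ (θ h w) := fun h w => by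
    rw [hψ]
    simp only [hequiv₀]
    simp [hθ, hθ₀, π]
  have hθr : θ.range = P0 := by
    ext g
    constructor
    · rintro ⟨s, rfl⟩
      simpa [hθ, hθ₀, π] using outEl_conj' p (e s).2
    · intro hg
      obtain ⟨s, hs⟩ : π * g * π⁻¹ ∈ θ₀.range := hθ₀r ▸ outEl_conj p hg
      refine ⟨s, ?_⟩
      rw [hθ, MonoidHom.comp_apply, hs]
      simp [mul_assoc]
  have hadj := A.label_adj hθr hinj hrange hequiv
  have hj₀ : ∀ w, Rel H a b c (ψ w) ↔ famB j₀ w = true := fun w => by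
    rw [← hpj w, hTi]
  obtain ⟨χ, hχinj, hall, hfar, hrel⟩ := A.exists_far hθr hequiv hj₀
  let f : Pt → V := fun x => match x with
    | none => a
    | some (.inl w) => ψ w
    | some (.inr i) => χ i
  have hfsurj : Function.Surjective f := fun y => by
    rcases A.cases y with rfl | hy | hy
    · exact ⟨none, rfl⟩
    · obtain ⟨w, rfl⟩ := (hrange y).1 (rel_base_iff.2 hy)
      exact ⟨ptB w, rfl⟩
    · obtain ⟨i, rfl⟩ := hall y hy
      exact ⟨ptC i, rfl⟩
  have hfbij : Function.Bijective f := (Nat.bijective_iff_surjective_and_card f).2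
    ⟨hfsurj, by rw [A.card, Nat.card_eq_fintype_card, Fintype.card_option, Fintype.card_sum,
      Fintype.card_fin, Fintype.card_fin]⟩
  set F := Equiv.ofBijective f hfbij
  have hnota : ∀ i, ¬ Rel H a b a (χ i) := fun i h =>
    Set.disjoint_left.1 A.disjoint.2.2 (rel_base_iff.1 h) (hfar i)
  have hF : ∀ x y, Rel H a b (F x) (F y) ↔ AdjPt x y := by
    intro x y
    show Rel H a b (f x) (f y) ↔ AdjPt x y
    rcases x with _ | (u | i) <;> rcases y with _ | (v | k) <;>
      simp only [f, AdjPt, iff_true, iff_false]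
    · exact fun h => A.rel_ne h rfl
    · exact (hrange _).2 ⟨v, rfl⟩
    · exact hnota k
    · exact A.rel_symm ((hrange _).2 ⟨u, rfl⟩)
    · exact hadj u v
    · rw [A.rel_comm]; exact hrel k u
    · exact fun h => hnota i (A.rel_symm h)
    · exact hrel i v
    · exact A.far_adj hinj hrange hχinj hall hfar hrel i k
  set φ : H →* Equiv.Perm Pt := F.symm.permCongrHom.toMonoidHom.comp (MulAction.toPermHom H V) with hφ
  have hφa : ∀ g x, F (φ g x) = g • F x := fun g x => by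
    simp [hφ, Equiv.permCongr_apply]
  refine ⟨φ, fun g g' h => ?_, ⟨?_, fun x => ?_, ?_, fun q hq => ?_⟩⟩
  · refine eq_of_smul_eq_smul fun v : V => ?_
    obtain ⟨x, rfl⟩ := F.surjective v
    rw [← hφa, ← hφa, h]
  · rintro _ ⟨g, rfl⟩ x y
    rw [← hF, hφa, hφa, rel_smul, hF]
  · obtain ⟨g, hg⟩ := A.trans (F x)
    exact ⟨φ g, ⟨g, rfl⟩, F.injective (by rw [hφa]; exact hg)⟩
  · rintro _ ⟨g, rfl⟩ h0
    have hg : g ∈ stabilizer H a := by
      have := hφa g none
      rw [h0] at this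
      exact this.symm
    refine ⟨θ ⟨g, hg⟩, hθr ▸ ⟨_, rfl⟩, fun w => F.injective ?_⟩
    rw [hφa]
    exact hequiv ⟨g, hg⟩ w
  · obtain ⟨s, rfl⟩ : q ∈ θ.range := hθr.symm ▸ hq
    exact ⟨φ s, ⟨_, rfl⟩, F.injective (by rw [hφa]; exact s.2),
      fun w => F.injective (by rw [hφa]; exact hequiv s w)⟩

/-- Two rank three groups of degree 275 with the given stabiliser are isomorphic. -/
theorem Act.iso (A : Act H V a b c) [FaithfulSMul H V] (e : ↥(stabilizer H a) ≃* ↥P0)
    {H' V' : Type*} [Group H'] [MulAction H' V'] [Fintype V'] [DecidableEq V'] {a' b' c' : V'}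
    (A' : Act H' V' a' b' c') [FaithfulSMul H' V'] (e' : ↥(stabilizer H' a') ≃* ↥P0) :
    Nonempty (H ≃* H') := by
  obtain ⟨φ, hφ, hK⟩ := A.exists_good e
  obtain ⟨φ', hφ', hK'⟩ := A'.exists_good e'
  exact ⟨((MonoidHom.ofInjective hφ).trans (MulEquiv.subgroupCongr (hK.eq hK'))).trans
    (MonoidHom.ofInjective hφ').symm⟩

end Cfsg.Agent.McLRank
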