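import Cfsg.Agent.McLRank.Group
import Cfsg.Agent.McLRank.IndexChecks

/-!
In the group on 112 points every subgroup of index 112 is a point stabiliser.
-/

set_option autoImplicit false

namespace Cfsg.Agent.McLRank

theorem sgen_fix (j : Fin 3) : sgen j (pt 0) = pt 0 := by
  have h := List.all_eq_true.1 gens_fix_ok.1 j (List.mem_range.2 j.2)
  simp only [Bool.and_eq_true, beq_iff_eq] at h
  exact Fin.ext (by rw [sgen_rep _ _, pt_val (by norm_num)]; exact h.1)

theorem Usub_fix {u : Equiv.Perm (Fin 112)} (hu : u ∈ Usub) : u (pt 0) = pt 0 := by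
  have : Usub ≤ MulAction.stabilizer (Equiv.Perm (Fin 112)) (pt 0) :=
    (Subgroup.closure_le _).2 (by rintro _ ⟨j, rfl⟩; exact sgen_fix j)
  exact this hu

/-- The stabiliser of the fixed clique. -/
def QStab : Subgroup (Equiv.Perm (Fin 112)) where
  carrier := {g | ∀ x : Fin 112, qB (g x : Fin 112) = qB x}
  one_mem' _ := rfl
  mul_mem' ha hb x := (ha _).trans (hb x)
  inv_mem' {g} hg x := by
    conv_rhs => rw [← Equiv.apply_symm_apply g x, hg]
    rfl

theorem Usub_QStab : Usub ≤ QStab := (Subgroup.closure_le _).2 (by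
  rintro _ ⟨j, rfl⟩ x
  have h := List.all_eq_true.1 gens_fix_ok.1 j (List.mem_range.2 j.2)
  simp only [Bool.and_eq_true, List.all_eq_true, List.mem_range, beq_iff_eq] at h
  rw [sgen_rep _ _]
  exact h.2 x x.2)

theorem exists_move (v : Fin 112) : ∃ g ∈ P0, g (pt 0) = v := by
  have h := List.all_eq_true.1 pointRep_ok v (List.mem_range.2 v.2)
  rw [beq_iff_eq] at h
  exact ⟨_, wel_mem (pointRep.getD v 0), Fin.ext (by rw [wel_val, pt_val (by norm_num)]; exact h)⟩

/-- The stabiliser of a point in the group. -/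
noncomputable def stabP (v : Fin 112) : Subgroup (Equiv.Perm (Fin 112)) :=
  P0 ⊓ MulAction.stabilizer (Equiv.Perm (Fin 112)) v

theorem mem_stabP {v : Fin 112} {g : Equiv.Perm (Fin 112)} :
    g ∈ stabP v ↔ g ∈ P0 ∧ g v = v := Iff.rfl

theorem card_stabP (hcard : Nat.card ↥P0 = 3265920) (v : Fin 112) :
    Nat.card ↥(stabP v) = 29160 := by
  have horb : MulAction.orbit ↥P0 v = Set.univ := by
    refine Set.eq_univ_of_forall fun w => ?_
    obtain ⟨a, ha, ha'⟩ := exists_move v
    obtain ⟨b, hb, hb'⟩ := exists_move w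
    refine ⟨⟨b * a⁻¹, mul_mem hb (inv_mem ha)⟩, ?_⟩
    show (b * a⁻¹) v = w
    rw [Equiv.Perm.mul_apply, ← ha', Equiv.Perm.inv_def, Equiv.symm_apply_apply, hb']
  have h := Subgroup.card_mul_index (MulAction.stabilizer ↥P0 v)
  rw [MulAction.index_stabilizer, horb, Set.ncard_univ, Nat.card_fin, hcard] at h
  have e : Nat.card ↥(MulAction.stabilizer ↥P0 v) = Nat.card ↥(stabP v) := Nat.card_congr
    { toFun := fun g => ⟨g.1.1, g.1.2, g.2⟩
      invFun := fun g => ⟨⟨g.1, g.2.1⟩, g.2.2⟩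
      left_inv := fun _ => rfl
      right_inv := fun _ => rfl }
  omega

theorem exists_double {i : ℕ} (hi : i < 4480) : ∃ d < 32, ∃ a ∈ Usub, ∃ b ∈ Usub,
    wel i = a * wel (dblData.getD d (0, 0)).1 * b := by
  have h := List.all_eq_true.1 lab_ok i (List.mem_range.2 hi)
  simp only [labOK, Bool.and_eq_true, Nat.blt_eq, List.all_eq_true, beq_iff_eq] at h
  obtain ⟨⟨⟨h1, h2⟩, h3⟩, h4⟩ := h
  generalize tget labT 64 i (0, 0, 0) = r at h1 h2 h3 h4
  refine ⟨r.1, h3, _, syl_mem r.2.1, _, inv_mem (syl_mem r.2.2), ?_⟩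
  rw [eq_mul_inv_iff_mul_eq]
  exact det_eq (mul_mem (wel_aut _) (syl_aut _)) (mul_mem (syl_aut _) (wel_aut _)) fun k hk =>
    Fin.ext (by
      rw [Equiv.Perm.mul_apply, Equiv.Perm.mul_apply, wel_val, syl_val h2, syl_val h1, wel_val,
        pt_val (detPts_lt hk)]
      exact (h4 k hk).symm)

theorem eq_stab_of_le (hcard : Nat.card ↥P0 = 3265920) {H : Subgroup (Equiv.Perm (Fin 112))}
    (hH : H ≤ P0) (hU : Usub ≤ H) (hc : Nat.card ↥H = 29160) : H = stabP (pt 0) := by
  by_cases hle : ∀ g ∈ H, g (pt 0) = pt 0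
  · exact Subgroup.eq_of_le_of_card_ge (fun g hg => ⟨hH hg, hle g hg⟩)
      (by rw [hc, card_stabP hcard])
  exfalso
  push Not at hle
  -- an element of `H` moving 0 fixes the clique
  have key : ∀ g ∈ H, g (pt 0) ≠ pt 0 → g ∈ QStab := by
    intro g hg hg0
    obtain ⟨i, hi, u, hu, rfl⟩ := exists_coset (hH hg)
    obtain ⟨d, hd, a, ha, b, hb, hab⟩ := exists_double hi
    rw [hab] at hg hg0 ⊢
    set D := wel (dblData.getD d (0, 0)).1 with hD
    have hDH : D ∈ H := by
      have e : D = a⁻¹ * (a * D * b * u) * (b * u)⁻¹ := by group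
      rw [e]
      exact mul_mem (mul_mem (inv_mem (hU ha)) hg) (inv_mem (hU (mul_mem hb hu)))
    have h := List.all_eq_true.1 dbl_ok d (List.mem_range.2 hd)
    simp only [dblOK, Bool.or_eq_true, Bool.and_eq_true, Nat.blt_eq, List.all_eq_true,
      List.mem_range, beq_iff_eq, List.any_eq_true, Bool.not_eq_true', beq_eq_false_iff_ne] at h
    rcases h with (h | h) | ⟨⟨he, h7⟩, hne⟩
    · refine absurd ?_ hg0
      have hD0 : D (pt 0) = pt 0 := Fin.ext (by rw [hD, wel_val, pt_val (by norm_num)]; exact h)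
      rw [Equiv.Perm.mul_apply, Equiv.Perm.mul_apply, Equiv.Perm.mul_apply, Usub_fix hu,
        Usub_fix hb, hD0, Usub_fix ha]
    · have hDQ : D ∈ QStab := fun x => by rw [hD, wel_val]; exact h x x.2
      exact mul_mem (mul_mem (mul_mem (Usub_QStab ha) hDQ) (Usub_QStab hb)) (Usub_QStab hu)
    · exfalso
      set x := D * syl (dblData.getD d (0, 0)).2 with hx
      have hxA : x ∈ Aut112 := mul_mem (wel_aut _) (syl_aut _)
      have hxval : ∀ y : Fin 112, ((x y : Fin 112) : ℕ) =
          wimg (dblData.getD d (0, 0)).1 (simg (dblData.getD d (0, 0)).2 y) := fun y => by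
        rw [hx, Equiv.Perm.mul_apply, hD, wel_val, syl_val he]
      have h1 : x ^ 7 = 1 := det_eq (pow_mem hxA 7) (one_mem _) fun k hk => Fin.ext (by
        simp only [pow_succ, pow_zero, one_mul, Equiv.Perm.mul_apply, Equiv.Perm.one_apply, hxval,
          pt_val (detPts_lt hk)]
        exact h7 k hk)
      obtain ⟨k, hk, hk'⟩ := hne
      have hx1 : x ≠ 1 := fun e => hk' (by
        have := hxval (pt k)
        rw [e, Equiv.Perm.one_apply, pt_val (detPts_lt hk)] at this
        exact this.symm)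
      haveI : Fact (Nat.Prime 7) := ⟨by norm_num⟩
      have hord : orderOf x = 7 := orderOf_eq_prime h1 hx1
      have hdvd := Subgroup.orderOf_dvd_natCard H (mul_mem hDH (hU (syl_mem _)) : x ∈ H)
      rw [hord, hc] at hdvd
      omega
  obtain ⟨g, hg, hg0⟩ := hle
  have hgQ := key g hg hg0
  have hall : H ≤ QStab := fun h hh => by
    by_cases h0 : h (pt 0) = pt 0
    · have := key (g * h) (mul_mem hg hh) (by rw [Equiv.Perm.mul_apply, h0]; exact hg0)
      simpa using mul_mem (inv_mem hgQ) this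
    · exact key h hh h0
  -- the bound
  set L := (List.range 4480).filter fun i => cliqueQ.all fun x => qB (wimg i x) with hL
  have hsub : (H : Set (Equiv.Perm (Fin 112))) ⊆
      (fun p : Equiv.Perm (Fin 112) × Equiv.Perm (Fin 112) => p.1 * p.2) ''
        ((wel '' {i | i ∈ L}) ×ˢ (Usub : Set (Equiv.Perm (Fin 112)))) := by
    intro h hh
    obtain ⟨i, hi, u, hu, rfl⟩ := exists_coset (hH hh)
    refine ⟨(wel i, u), ⟨⟨i, ?_, rfl⟩, hu⟩, rfl⟩
    have hiQ : wel i ∈ QStab := by
      simpa using mul_mem (hall hh) (inv_mem (Usub_QStab hu))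
    simp only [Set.mem_setOf_eq, hL, List.mem_filter, List.mem_range, List.all_eq_true]
    refine ⟨hi, fun x hx => ?_⟩
    have hx112 : x < 112 := by simpa using List.all_eq_true.1 gens_fix_ok.2.2 x hx
    have := hiQ (pt x)
    rw [wel_val, pt_val hx112] at this
    rw [this]
    simpa [qB] using hx
  have hfin : {i | i ∈ L}.Finite := L.finite_toSet
  have hle : Nat.card ↥H ≤ L.length * 729 := by
    calc Nat.card ↥H = (H : Set (Equiv.Perm (Fin 112))).ncard :=
          (Nat.card_coe_set_eq _).symm ▸ rfl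
      _ ≤ ((fun p : Equiv.Perm (Fin 112) × Equiv.Perm (Fin 112) => p.1 * p.2) ''
            ((wel '' {i | i ∈ L}) ×ˢ (Usub : Set (Equiv.Perm (Fin 112))))).ncard :=
          Set.ncard_le_ncard hsub
      _ ≤ ((wel '' {i | i ∈ L}) ×ˢ (Usub : Set (Equiv.Perm (Fin 112)))).ncard :=
          Set.ncard_image_le (Set.toFinite _)
      _ = (wel '' {i | i ∈ L}).ncard * (Usub : Set (Equiv.Perm (Fin 112))).ncard := Set.ncard_prod
      _ ≤ L.length * 729 := by
          refine Nat.mul_le_mul ((Set.ncard_image_le hfin).trans ?_) (le_of_eq ?_)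
          · rw [show {i | i ∈ L} = (L.toFinset : Set ℕ) by ext; simp, Set.ncard_coe_finset]
            exact L.toFinset_card_le
          · exact (Nat.card_coe_set_eq _).symm.trans card_Usub
  have hq : L.length ≤ 16 := by
    rw [hL, ← List.countP_eq_length_filter]
    exact qCount_le
  omega

/-- Every subgroup of index 112 is a point stabiliser. -/
theorem exists_eq_stab (hcard : Nat.card ↥P0 = 3265920) {H : Subgroup (Equiv.Perm (Fin 112))}
    (hH : H ≤ P0) (hc : Nat.card ↥H = 29160) : ∃ v : Fin 112, H = stabP v := by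
  haveI : Fact (Nat.Prime 3) := ⟨Nat.prime_three⟩
  obtain ⟨S, hS⟩ := Sylow.exists_subgroup_card_pow_prime (G := ↥H) 3 (n := 6) (by rw [hc]; norm_num)
  have hfac : (Nat.card ↥P0).factorization 3 = 6 := by
    rw [hcard, show (3265920 : ℕ) = 3 ^ 6 * 4480 by norm_num,
      Nat.factorization_mul (by norm_num) (by norm_num), Finsupp.add_apply,
      Nat.factorization_eq_zero_of_not_dvd (show ¬ 3 ∣ 4480 by norm_num),
      Nat.Prime.factorization_pow Nat.prime_three]
    simp
  set S' : Subgroup ↥P0 := (S.map H.subtype).subgroupOf P0 with hS'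
  have hSle : S.map H.subtype ≤ P0 := (Subgroup.map_subtype_le S).trans hH
  have c1 : Nat.card ↥S' = 3 ^ (Nat.card ↥P0).factorization 3 := by
    rw [hfac, Nat.card_congr (Subgroup.subgroupOfEquivOfLe hSle).toEquiv,
      Nat.card_congr (S.equivMapOfInjective _ H.subtype_injective).symm.toEquiv, hS]
  have c2 : Nat.card ↥(Usub.subgroupOf P0) = 3 ^ (Nat.card ↥P0).factorization 3 := by
    rw [hfac, Nat.card_congr (Subgroup.subgroupOfEquivOfLe Usub_le).toEquiv, card_Usub]
    norm_num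
  obtain ⟨c, hcc⟩ := MulAction.exists_smul_eq ↥P0
    (Sylow.ofCard (Usub.subgroupOf P0) c2) (Sylow.ofCard S' c1)
  have hcU : ∀ u ∈ Usub, (c : Equiv.Perm (Fin 112)) * u * (c : Equiv.Perm (Fin 112))⁻¹ ∈ H := by
    intro u hu
    have h1 : (⟨u, Usub_le hu⟩ : ↥P0) ∈ (Sylow.ofCard (Usub.subgroupOf P0) c2 : Subgroup ↥P0) := by
      simpa [Sylow.coe_ofCard, Subgroup.mem_subgroupOf] using hu
    have h2 : c * ⟨u, Usub_le hu⟩ * c⁻¹ ∈
        ((c • Sylow.ofCard (Usub.subgroupOf P0) c2 : Sylow 3 ↥P0) : Subgroup ↥P0) := by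
      rw [Sylow.coe_subgroup_smul, Subgroup.pointwise_smul_def]
      exact ⟨_, h1, rfl⟩
    rw [hcc, Sylow.coe_ofCard, hS', Subgroup.mem_subgroupOf] at h2
    exact Subgroup.map_subtype_le S h2
  set K := H.map (MulAut.conj (c : Equiv.Perm (Fin 112))⁻¹).toMonoidHom with hK
  have hKe : K = stabP (pt 0) := by
    refine eq_stab_of_le hcard ?_ ?_ ?_
    · rintro _ ⟨h, hh, rfl⟩
      simpa using mul_mem (mul_mem (inv_mem c.2) (hH hh)) c.2
    · intro u hu
      refine ⟨_, hcU u hu, ?_⟩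
      simp [mul_assoc]
    · rw [← hc]
      exact Nat.card_congr (H.equivMapOfInjective _
        (MulAut.conj (c : Equiv.Perm (Fin 112))⁻¹).injective).symm.toEquiv
  refine ⟨(c : Equiv.Perm (Fin 112)) (pt 0), ?_⟩
  ext h
  have hiff : h ∈ H ↔ (c : Equiv.Perm (Fin 112))⁻¹ * h * c ∈ K := by
    rw [hK]
    constructor
    · exact fun hh => ⟨h, hh, by simp⟩
    · rintro ⟨y, hy, e⟩
      have : y = h := by simpa using e
      exact this ▸ hy
  rw [hiff, hKe, mem_stabP, mem_stabP]
  refine and_congr ⟨fun e => ?_, fun e => mul_mem (mul_mem (inv_mem c.2) e) c.2⟩ ?_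
  · simpa [mul_assoc] using mul_mem (mul_mem c.2 e) (inv_mem c.2)
  · rw [Equiv.Perm.mul_apply, Equiv.Perm.mul_apply, Equiv.Perm.inv_eq_iff_eq]

/-- The point stabiliser is transitive on each of the two other suborbits. -/
theorem exists_suborbit (v : Fin 112) (hv : v ≠ pt 0) :
    ∃ g ∈ stabP (pt 0), g (pt (bif adjB 0 v then nb else nn)) = v := by
  have h := List.all_eq_true.1 sub_ok.1 v (List.mem_range.2 v.2)
  simp only [subOK, Bool.or_eq_true, Bool.and_eq_true, Nat.blt_eq, beq_iff_eq] at h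
  rcases h with h | ⟨⟨h1, h2⟩, h3⟩
  · exact absurd (Fin.ext (by rw [h, pt_val (by norm_num)])) hv
  generalize suborbitRep.getD v (0, 0) = r at h1 h2 h3
  have hb : (bif adjB 0 v then nb else nn) < 112 := by
    cases adjB 0 v
    exacts [sub_ok.2.2.2.2.1, sub_ok.2.2.2.1]
  refine ⟨wel r.1 * syl r.2, ⟨mul_mem (wel_mem _) (Usub_le (syl_mem _)), ?_⟩, Fin.ext ?_⟩
  · show (wel r.1 * syl r.2) (pt 0) = pt 0
    rw [Equiv.Perm.mul_apply, Usub_fix (syl_mem _)]
    exact Fin.ext (by rw [wel_val, pt_val (by norm_num)]; exact h2)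
  · rw [Equiv.Perm.mul_apply, wel_val, syl_val h1, pt_val hb]
    exact h3

end Cfsg.Agent.McLRank
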