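import Cfsg.Agent.McLRank.Image

/-!
A rank three action of degree 275 with subdegrees 1, 112, 162: the parameters of its graph.
-/

set_option autoImplicit false

namespace Cfsg.Agent.McLRank

open MulAction

variable {H V : Type*} [Group H] [MulAction H V]

/-- The data of a rank three action of degree 275. -/
structure Act (H V : Type*) [Group H] [MulAction H V] (a b c : V) : Prop where
  card : Nat.card V = 275
  trans : ∀ x : V, ∃ g : H, g • a = x
  cardB : (orbit (stabilizer H a) b).ncard = 112
  cardC : (orbit (stabilizer H a) c).ncard = 162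

/-- The orbital of a pair. -/
def Rel (H : Type*) [Group H] [MulAction H V] (a b x y : V) : Prop :=
  ∃ g : H, g • a = x ∧ g • b = y

theorem rel_smul {a b x y : V} (g : H) : Rel H a b (g • x) (g • y) ↔ Rel H a b x y := by
  constructor
  · rintro ⟨h, h1, h2⟩
    exact ⟨g⁻¹ * h, by rw [mul_smul, h1, inv_smul_smul], by rw [mul_smul, h2, inv_smul_smul]⟩
  · rintro ⟨h, h1, h2⟩
    exact ⟨g * h, by rw [mul_smul, h1], by rw [mul_smul, h2]⟩

theorem rel_base_iff {a b y : V} : Rel H a b a y ↔ y ∈ orbit (stabilizer H a) b := by
  constructor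
  · rintro ⟨g, h1, h2⟩
    exact ⟨⟨g, h1⟩, h2⟩
  · rintro ⟨g, rfl⟩
    exact ⟨g.1, g.2, rfl⟩

/-- The common neighbours of two points. -/
def com (H : Type*) [Group H] [MulAction H V] (a b x y : V) : Set V :=
  {z | Rel H a b x z ∧ Rel H a b y z}

theorem com_smul {a b : V} (g : H) (x y : V) :
    (com H a b (g • x) (g • y)).ncard = (com H a b x y).ncard := by
  rw [← Set.ncard_image_of_injective (com H a b x y) (MulAction.injective g)]
  congr 1
  ext z
  constructor
  · intro hz
    refine ⟨g⁻¹ • z, ⟨?_, ?_⟩, smul_inv_smul g z⟩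
    · rw [← rel_smul g, smul_inv_smul]; exact hz.1
    · rw [← rel_smul g, smul_inv_smul]; exact hz.2
  · rintro ⟨w, hw, rfl⟩
    exact ⟨(rel_smul g).2 hw.1, (rel_smul g).2 hw.2⟩

variable [Fintype V] [DecidableEq V] {a b c : V}

theorem orbit_self (a : V) : (orbit (stabilizer H a) a).ncard = 1 := by
  rw [show orbit (stabilizer H a) a = {a} from
    Set.eq_singleton_iff_unique_mem.mpr ⟨mem_orbit_self a, fun x ⟨g, hg⟩ => hg ▸ g.2⟩,
    Set.ncard_singleton]

theorem Act.disjoint (A : Act H V a b c) :
    a ∉ orbit (stabilizer H a) b ∧ a ∉ orbit (stabilizer H a) c ∧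
      Disjoint (orbit (stabilizer H a) b) (orbit (stabilizer H a) c) := by
  have key : ∀ u w : V, (orbit (stabilizer H a) u).ncard ≠ (orbit (stabilizer H a) w).ncard →
      Disjoint (orbit (stabilizer H a) u) (orbit (stabilizer H a) w) := by
    intro u w h
    rw [Set.disjoint_left]
    intro x hx hx'
    exact h (by rw [← orbit_eq_iff.mpr hx, orbit_eq_iff.mpr hx'])
  refine ⟨fun h => ?_, fun h => ?_, key b c (by rw [A.cardB, A.cardC]; omega)⟩
  · exact Set.disjoint_left.mp (key a b (by rw [orbit_self, A.cardB]; omega)) (mem_orbit_self a) h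
  · exact Set.disjoint_left.mp (key a c (by rw [orbit_self, A.cardC]; omega)) (mem_orbit_self a) h

theorem Act.cases (A : Act H V a b c) (x : V) :
    x = a ∨ x ∈ orbit (stabilizer H a) b ∨ x ∈ orbit (stabilizer H a) c := by
  obtain ⟨h1, h2, h3⟩ := A.disjoint
  by_contra h
  simp only [not_or] at h
  have hsub : insert x (insert a (orbit (stabilizer H a) b ∪ orbit (stabilizer H a) c)) ⊆
      (Set.univ : Set V) := Set.subset_univ _
  have hle := Set.ncard_le_ncard hsub
  rw [Set.ncard_univ, A.card, Set.ncard_insert_of_notMem (by simp [h.1, h.2.1, h.2.2]),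
    Set.ncard_insert_of_notMem (by simp [h1, h2]),
    Set.ncard_union_eq h3, A.cardB, A.cardC] at hle
  omega

theorem Act.out_card (A : Act H V a b c) (x : V) : {y | Rel H a b x y}.ncard = 112 := by
  obtain ⟨g, rfl⟩ := A.trans x
  rw [← A.cardB, ← Set.ncard_image_of_injective (orbit (stabilizer H a) b) (MulAction.injective g)]
  congr 1
  ext y
  constructor
  · intro hy
    refine ⟨g⁻¹ • y, rel_base_iff.1 ?_, smul_inv_smul g y⟩
    rw [← rel_smul g, smul_inv_smul]
    exact hy
  · rintro ⟨z, hz, rfl⟩
    exact (rel_smul g).2 (rel_base_iff.2 hz)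

theorem Act.rel_symm (A : Act H V a b c) {x y : V} (h : Rel H a b x y) : Rel H a b y x := by
  classical
  have hconst : ∀ x, {y | Rel H a b y x}.ncard = {y | Rel H a b y a}.ncard := by
    intro x
    obtain ⟨g, rfl⟩ := A.trans x
    rw [← Set.ncard_image_of_injective {y | Rel H a b y a} (MulAction.injective g)]
    congr 1
    ext y
    constructor
    · intro hy
      refine ⟨g⁻¹ • y, ?_, smul_inv_smul g y⟩
      show Rel H a b (g⁻¹ • y) a
      rw [← rel_smul g, smul_inv_smul]
      exact hy
    · rintro ⟨z, hz, rfl⟩
      exact (rel_smul g).2 hz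
  have hin : {y | Rel H a b y a}.ncard = 112 := by
    have h := Finset.sum_card_bipartiteAbove_eq_sum_card_bipartiteBelow
      (s := (Finset.univ : Finset V)) (t := (Finset.univ : Finset V)) (r := Rel H a b)
    have e1 : ∀ x, ((Finset.univ : Finset V).bipartiteAbove (Rel H a b) x).card = 112 := by
      intro x
      rw [← A.out_card x, Set.ncard_eq_toFinset_card']
      congr 1
      ext y
      simp [Finset.bipartiteAbove]
    have e2 : ∀ x, ((Finset.univ : Finset V).bipartiteBelow (Rel H a b) x).card =
        {y | Rel H a b y a}.ncard := by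
      intro x
      rw [← hconst x, Set.ncard_eq_toFinset_card']
      congr 1
      ext y
      simp [Finset.bipartiteBelow]
    simp only [e1, e2, Finset.sum_const, Finset.card_univ, ← Nat.card_eq_fintype_card, A.card,
      smul_eq_mul] at h
    omega
  obtain ⟨g, rfl⟩ := A.trans y
  obtain ⟨z, rfl⟩ : ∃ z, g • z = x := ⟨g⁻¹ • x, smul_inv_smul g x⟩
  rw [rel_smul] at h ⊢
  obtain ⟨h1, -, h3⟩ := A.disjoint
  have hz : orbit (stabilizer H a) z ⊆ {y | Rel H a b y a} := by
    rintro _ ⟨s, rfl⟩
    have := (rel_smul s.1).mpr h
    rwa [mem_stabilizer_iff.mp s.2] at this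
  rw [rel_base_iff]
  rcases A.cases z with rfl | hzb | hzc
  · exact absurd (rel_base_iff.mp h) h1
  · exact hzb
  · exfalso
    have hle := Set.ncard_le_ncard hz
    rw [orbit_eq_iff.mpr hzc, A.cardC, hin] at hle
    omega

theorem Act.rel_comm (A : Act H V a b c) {x y : V} : Rel H a b x y ↔ Rel H a b y x :=
  ⟨A.rel_symm, A.rel_symm⟩

theorem Act.rel_ne (A : Act H V a b c) {x y : V} (h : Rel H a b x y) : x ≠ y := by
  rintro rfl
  obtain ⟨g, h1, h2⟩ := h
  exact A.disjoint.1 (by rw [MulAction.injective g (h1.trans h2.symm)]; exact mem_orbit_self b)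

theorem Act.com_adj (A : Act H V a b c) {x y : V} (h : Rel H a b x y) :
    (com H a b x y).ncard = (com H a b a b).ncard := by
  obtain ⟨g, rfl, rfl⟩ := h
  exact com_smul g a b

theorem Act.com_nonadj (A : Act H V a b c) {x y : V} (hne : x ≠ y) (h : ¬ Rel H a b x y) :
    (com H a b x y).ncard = (com H a b a c).ncard := by
  obtain ⟨g, rfl⟩ := A.trans x
  obtain ⟨y, rfl⟩ : ∃ z, g • z = y := ⟨g⁻¹ • y, smul_inv_smul g y⟩
  rw [com_smul]
  rw [rel_smul, rel_base_iff] at h
  rcases A.cases y with rfl | hy | hy
  · exact absurd rfl hne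
  · exact absurd hy h
  · obtain ⟨s, rfl⟩ := hy
    have e := com_smul (a := a) (b := b) s.1 a c
    rw [mem_stabilizer_iff.mp s.2] at e
    exact e

/-- The parameters of the graph. -/
theorem Act.params (A : Act H V a b c) :
    (com H a b a b).ncard = 30 ∧ (com H a b a c).ncard = 56 := by
  classical
  set l := (com H a b a b).ncard with hl
  set m := (com H a b a c).ncard with hm
  let nb : V → Finset V := fun x => Finset.univ.filter fun y => Rel H a b x y
  have hnb : ∀ x, (nb x).card = 112 := fun x => by
    rw [← A.out_card x, Set.ncard_eq_toFinset_card']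
    congr 1
    ext y
    simp [nb]
  have hcom : ∀ x y, (nb x ∩ nb y).card = (com H a b x y).ncard := fun x y => by
    rw [Set.ncard_eq_toFinset_card']
    congr 1
    ext z
    rw [Set.mem_toFinset]
    simp [nb, com]
  have hll : l ≤ 111 := by
    have hsub : nb a ∩ nb b ⊆ (nb a).erase b := fun z hz => by
      simp only [nb, Finset.mem_inter, Finset.mem_filter, Finset.mem_univ, true_and] at hz
      simp only [nb, Finset.mem_erase, Finset.mem_filter, Finset.mem_univ, true_and]
      exact ⟨fun e => A.rel_ne hz.2 e.symm, hz.1⟩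
    have := Finset.card_le_card hsub
    rw [hcom, Finset.card_erase_of_mem
      (by simp [nb, rel_base_iff, mem_orbit_self]), hnb] at this
    omega
  set C := (Finset.univ : Finset V).filter (fun y => y ≠ a ∧ ¬ Rel H a b a y) with hC
  have cC : C.card = 162 := by
    have h1 : C = Finset.univ \ (insert a (nb a)) := by ext y; simp [hC, nb]
    rw [h1, Finset.card_sdiff_of_subset (Finset.subset_univ _), Finset.card_univ,
      ← Nat.card_eq_fintype_card, A.card,
      Finset.card_insert_of_notMem (by simp only [nb, Finset.mem_filter, not_and]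
                                       exact fun _ h => A.rel_ne h rfl), hnb]
  have hcount : 112 * 111 = 112 * l + 162 * m := by
    have h := Finset.sum_card_bipartiteAbove_eq_sum_card_bipartiteBelow (s := nb a) (t := C)
      (r := Rel H a b)
    have e1 : ∀ y ∈ nb a, (C.bipartiteAbove (Rel H a b) y).card + l = 111 := by
      intro y hy
      simp only [nb, Finset.mem_filter, Finset.mem_univ, true_and] at hy
      have hsplit : nb y = insert a ((C.bipartiteAbove (Rel H a b) y) ∪ (nb a ∩ nb y)) := by
        ext z
        simp only [nb, Finset.mem_filter, Finset.mem_univ, true_and, Finset.mem_insert,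
          Finset.mem_union, Finset.mem_inter, Finset.bipartiteAbove, hC]
        by_cases hza : z = a
        · simp [hza, A.rel_symm hy]
        · by_cases h1 : Rel H a b a z <;> simp [hza, h1]
      have hd := hnb y
      rw [hsplit, Finset.card_insert_of_notMem (by
          simp only [nb, Finset.mem_union, Finset.mem_inter, Finset.bipartiteAbove,
            Finset.mem_filter, hC]
          rintro (⟨⟨-, h, -⟩, -⟩ | ⟨⟨-, h⟩, -⟩)
          exacts [h rfl, A.rel_ne h rfl]),
        Finset.card_union_of_disjoint (by
          rw [Finset.disjoint_left]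
          intro z hz hz'
          simp only [nb, Finset.mem_inter, Finset.bipartiteAbove, Finset.mem_filter, hC] at hz hz'
          exact hz.1.2.2 hz'.1.2), hcom, A.com_adj hy] at hd
      omega
    have e2 : ∀ z ∈ C, ((nb a).bipartiteBelow (Rel H a b) z).card = m := by
      intro z hz
      simp only [hC, Finset.mem_filter, Finset.mem_univ, true_and] at hz
      rw [hm, ← A.com_nonadj (Ne.symm hz.1) hz.2, ← hcom]
      congr 1
      ext y
      simp [nb, Finset.bipartiteBelow, A.rel_comm (x := z)]
    have h2 : ∑ y ∈ nb a, (C.bipartiteAbove (Rel H a b) y).card + (nb a).card * l =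
        (nb a).card * 111 := by
      rw [← smul_eq_mul, ← Finset.sum_const, ← Finset.sum_add_distrib, Finset.sum_congr rfl e1,
        Finset.sum_const, smul_eq_mul]
    rw [h, Finset.sum_congr rfl e2, Finset.sum_const, smul_eq_mul, cC, hnb] at h2
    omega
  have h111 : l ≠ 111 := by
    intro hl111
    have hm0 : m = 0 := by omega
    have hclass : ∀ x y, Rel H a b x y → insert y (nb y) = insert x (nb x) := by
      intro x y h
      refine Finset.eq_of_subset_of_card_le (fun z hz => ?_) ?_
      · simp only [nb, Finset.mem_insert, Finset.mem_filter, Finset.mem_univ, true_and] at hz ⊢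
        rcases hz with rfl | hz
        · exact .inr h
        · by_contra hn
          simp only [not_or] at hn
          have := A.com_nonadj (x := x) (y := z) (Ne.symm hn.1) hn.2
          rw [← hm, hm0, Set.ncard_eq_zero] at this
          exact Set.eq_empty_iff_forall_notMem.mp this y ⟨h, A.rel_symm hz⟩
      · have hirr : ∀ w, w ∉ nb w := fun w => by
          simp only [nb, Finset.mem_filter, not_and]
          exact fun _ h => A.rel_ne h rfl
        rw [Finset.card_insert_of_notMem (hirr x), Finset.card_insert_of_notMem (hirr y), hnb, hnb]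
    have hsum := Finset.card_eq_sum_card_image (fun x => insert x (nb x)) (Finset.univ : Finset V)
    rw [Finset.sum_congr rfl (g := fun _ => 113) (fun S hS => by
      obtain ⟨x, -, rfl⟩ := Finset.mem_image.mp hS
      have : (Finset.univ.filter fun y => insert y (nb y) = insert x (nb x)) = insert x (nb x) := by
        ext y
        simp only [Finset.mem_filter, Finset.mem_univ, true_and]
        constructor
        · intro e; rw [← e]; exact Finset.mem_insert_self _ _
        · intro hy
          simp only [nb, Finset.mem_insert, Finset.mem_filter, Finset.mem_univ, true_and] at hy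
          rcases hy with rfl | hy
          · rfl
          · exact hclass x y hy
      rw [this, Finset.card_insert_of_notMem (by
        simp only [nb, Finset.mem_filter, not_and]
        exact fun _ h => A.rel_ne h rfl), hnb]),
      Finset.sum_const, Finset.card_univ, ← Nat.card_eq_fintype_card, A.card, smul_eq_mul] at hsum
    omega
  constructor <;> omega

end Cfsg.Agent.McLRank
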